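import Cfsg.Agent.H924.TenWrap
import Cfsg.Agent.H872.KronPres
import Mathlib
import Cfsg.Agent.H189.TraceFix
import Cfsg.Agent.FastGrp
import Cfsg.Agent.Prune
set_option linter.all false
prune_inst 0x7ff3b9fbfbff7bffdfff7e77a69ecffdffbb3fffe6dff9cb7fe061ff0b9f5b984fc5fbaf8fea30fe1ef7e21410f87b53ffffffffe86ff87ffffdbff41ffbffcffdf7b508519e98b40fbc0fff03f0778e7f3fffffffffffffffffffffffffffbeffbfffffffff
open scoped Cfsg.Agent.FastGrp

-- part: H919/FourA
section
/-!
# `Sp_2(q) ⊗ O_4(q)` in `Sp_8(q)`: the stabiliser of `e ⊗ W` (helper919)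
-/

set_option autoImplicit false
set_option linter.unusedSectionVars false

open Cfsg Cfsg.Geo Matrix
open scoped Kronecker

namespace Cfsg.Agent.H919.Four

open Cfsg.Agent.H929 (QF rB)
open Cfsg.Agent.H872 Cfsg.Agent.H924.Ten

variable {β : Type} [Fintype β] [DecidableEq β] {F : Type*} [Field F]
variable {f₁ : (Fin 2 → F) → (Fin 2 → F) → F} {Q : (β → F) → F} {B : (β → F) → (β → F) → F}
  {f : (Fin 2 × β → F) → (Fin 2 × β → F) → F}

/-- coordinates of the functional `f₁ · e` -/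
def phi (f₁ : (Fin 2 → F) → (Fin 2 → F) → F) (e : Fin 2 → F) : Fin 2 → F := fun i => f₁ (Pi.single i 1) e

/-- contraction with `f₁ · e` -/
def Lc (f₁ : (Fin 2 → F) → (Fin 2 → F) → F) (e : Fin 2 → F) : (Fin 2 × β → F) →ₗ[F] (β → F) := lc (phi f₁ e)

/-- `g = 1 + ten e (κ (L e ·))` -/
def Kel (f₁ : (Fin 2 → F) → (Fin 2 → F) → F) (e : Fin 2 → F) (κ : (β → F) →ₗ[F] (β → F))
    (g : GL (Fin 2 × β) F) : Prop :=
  ∀ v, (g : Matrix (Fin 2 × β) (Fin 2 × β) F) *ᵥ v = v + ten e (κ (Lc f₁ e v))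

lemma phi_dot (T : IsSymplecticForm f₁) (e u : Fin 2 → F) : phi f₁ e ⬝ᵥ u = f₁ u e := by
  have h : u = u 0 • Pi.single 0 1 + u 1 • Pi.single 1 1 := by
    funext i
    fin_cases i <;> simp
  conv_rhs => rw [h]
  rw [T.bilinear.add_left, T.bilinear.smul_left, T.bilinear.smul_left]
  simp only [phi, dotProduct, Fin.sum_univ_two]
  ring

variable (T : Tens f₁ Q B f) {M : Subgroup (GL (Fin 2 × β) F)} (hM : Grp f₁ B f M)

include T

lemma L_ten (e u : Fin 2 → F) (w : β → F) : Lc f₁ e (ten u w) = f₁ u e • w := by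
  rw [Lc, lc_ten, phi_dot T.sym]

lemma form_L (v : Fin 2 × β → F) (e : Fin 2 → F) (x : β → F) : f v (ten e x) = B (Lc f₁ e v) x := by
  conv_lhs => rw [eq_sum_ten v]
  conv_rhs => rw [eq_sum_ten v]
  rw [T.f_sum_left, map_sum, T.qf.comm, T.qf.sum_right]
  apply Finset.sum_congr rfl
  intro i _
  rw [T.ten, L_ten T, T.qf.smul_right, T.qf.comm x]

lemma exists_dual {e : Fin 2 → F} (he : e ≠ 0) : ∃ e', f₁ e' e = 1 := by
  obtain ⟨y, hy⟩ := (T.sym.nondegenerate e he).1
  refine ⟨(f₁ y e)⁻¹ • y, ?_⟩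
  rw [T.sym.bilinear.smul_left, inv_mul_cancel₀ hy]

/-- expansion along `e, e'` -/
lemma expand {e e' : Fin 2 → F} (he : f₁ e' e = 1) (u : Fin 2 → F) :
    u = - f₁ u e' • e + f₁ u e • e' := by
  have he0 : f₁ e e' = -1 := by rw [T.sym.skew, he]
  have key : u - (- f₁ u e' • e + f₁ u e • e') = 0 := by
    apply T.eq_zero_of_f₁
    have hlin : ∀ x y z : Fin 2 → F, f₁ (x - y) z = f₁ x z - f₁ y z := by
      intro x y z
      rw [sub_eq_add_neg, T.sym.bilinear.add_left, ← neg_one_smul F y, T.sym.bilinear.smul_left]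
      ring
    have h1 : f₁ (u - (- f₁ u e' • e + f₁ u e • e')) e = 0 := by
      rw [hlin, T.sym.bilinear.add_left, T.sym.bilinear.smul_left, T.sym.bilinear.smul_left, T.sym.alternating e, he]
      ring
    have h2 : f₁ (u - (- f₁ u e' • e + f₁ u e • e')) e' = 0 := by
      rw [hlin, T.sym.bilinear.add_left, T.sym.bilinear.smul_left, T.sym.bilinear.smul_left, T.sym.alternating e', he0]
      ring
    set x := u - (- f₁ u e' • e + f₁ u e • e')
    -- coordinates
    have hco : ∀ u v, f₁ u v = (u 0 * v 1 - u 1 * v 0) * f₁ (Pi.single 0 1) (Pi.single 1 1) := by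
      intro u v
      have hexp : ∀ u : Fin 2 → F, u = u 0 • Pi.single 0 1 + u 1 • Pi.single 1 1 := by
        intro u
        funext i
        (revert i; simp only [_root_.Fin.forall_fin_succ, Fin.isValue, _root_.Pi.add_apply, _root_.Pi.smul_apply, _root_.smul_eq_mul, _root_.Pi.single_eq_same, _root_.mul_one, _root_.ne_eq, _root_.zero_ne_one, _root_.not_false_eq_true, _root_.Pi.single_eq_of_ne, _root_.MulZeroClass.mul_zero, _root_.add_zero, _root_.Fin.succ_ne_zero, _root_.zero_add, _root_.Fin.succ_zero_eq_one, _root_.IsEmpty.forall_iff, _root_.and_self])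
      conv_lhs => rw [hexp u, hexp v]
      simp only [T.sym.bilinear.add_left, T.sym.bilinear.add_right, T.sym.bilinear.smul_left,
        T.sym.bilinear.smul_right, T.sym.alternating, T.sym.skew (Pi.single 1 1) (Pi.single 0 1)]
      ring
    intro z
    set k := f₁ (Pi.single 0 1) (Pi.single 1 1) with hk
    have hk0 : k ≠ 0 := by
      intro h
      rw [hco, h, mul_zero] at he
      exact zero_ne_one he
    have hd : e' 0 * e 1 - e' 1 * e 0 ≠ 0 := by
      intro h
      rw [hco, h, zero_mul] at he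
      exact zero_ne_one he
    rw [hco] at h1 h2
    have e1 := (mul_eq_zero.mp h1).resolve_right hk0
    have e2 := (mul_eq_zero.mp h2).resolve_right hk0
    have a0 : (e' 0 * e 1 - e' 1 * e 0) * x 0 = 0 := by linear_combination e' 0 * e1 - e 0 * e2
    have a1 : (e' 0 * e 1 - e' 1 * e 0) * x 1 = 0 := by linear_combination e' 1 * e1 - e 1 * e2
    have b0 := (mul_eq_zero.mp a0).resolve_left hd
    have b1 := (mul_eq_zero.mp a1).resolve_left hd
    rw [hco, b0, b1]
    ring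
  exact sub_eq_zero.mp key

/-- expansion of a tensor along `e, e'` -/
lemma expand_ten {e e' : Fin 2 → F} (he : f₁ e' e = 1) (v : Fin 2 × β → F) :
    v = ten e (- Lc f₁ e' v) + ten e' (Lc f₁ e v) := by
  let tt : (Fin 2 → F) → (β → F) →ₗ[F] (Fin 2 × β → F) := fun u =>
    { toFun := fun w => ten u w
      map_add' := fun x y => ten_add_right u x y
      map_smul' := fun c x => ten_smul_right c u x }
  have key : (LinearMap.id : (Fin 2 × β → F) →ₗ[F] (Fin 2 × β → F)) =
      - (tt e ∘ₗ Lc f₁ e') + tt e' ∘ₗ Lc f₁ e := by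
    apply linearMap_ext_ten
    intro u w
    show ten u w = - ten e (Lc f₁ e' (ten u w)) + ten e' (Lc f₁ e (ten u w))
    rw [L_ten T, L_ten T]
    conv_lhs => rw [expand T he u]
    rw [ten_add_left, ten_smul_left, ten_smul_left, ten_smul_right, ten_smul_right, neg_smul]
  have h := congrArg (fun X : (Fin 2 × β → F) →ₗ[F] (Fin 2 × β → F) => X v) key
  have h2 : v = - ten e (Lc f₁ e' v) + ten e' (Lc f₁ e v) := h
  conv_lhs => rw [h2]
  congr 1
  funext p
  simp [ten_apply]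

lemma exists_ten_of_L {e : Fin 2 → F} (he : e ≠ 0) {v : Fin 2 × β → F} (hv : Lc f₁ e v = 0) :
    ∃ w, v = ten e w := by
  obtain ⟨e', he'⟩ := exists_dual T he
  refine ⟨- Lc f₁ e' v, ?_⟩
  conv_lhs => rw [expand_ten T he' v]
  rw [hv, ten_zero_right, add_zero]

lemma eq_zero_of_B {x : β → F} (h : ∀ y, B x y = 0) : x = 0 := by
  by_contra hx
  obtain ⟨y, hy⟩ := T.nd x hx
  exact hy (h y)

/-- An isometry fixing `e ⊗ W` pointwise. -/
lemma exists_kel {e : Fin 2 → F} (he : e ≠ 0) {g : GL (Fin 2 × β) F}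
    (hg : ∀ v w, f ((g : Matrix (Fin 2 × β) (Fin 2 × β) F) *ᵥ v) ((g : Matrix (Fin 2 × β) (Fin 2 × β) F) *ᵥ w) = f v w)
    (hfix : ∀ w, (g : Matrix (Fin 2 × β) (Fin 2 × β) F) *ᵥ (ten e w) = ten e w) :
    ∃ κ : (β → F) →ₗ[F] (β → F), (∀ x y, B (κ x) y = B x (κ y)) ∧ Kel f₁ e κ g := by
  obtain ⟨e', he'⟩ := exists_dual T he
  have hee' : f₁ e e' = -1 := by rw [T.sym.skew, he']
  let te : (β → F) →ₗ[F] (Fin 2 × β → F) :=
    { toFun := fun w => ten e' w
      map_add' := fun x y => ten_add_right e' x y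
      map_smul' := fun c x => ten_smul_right c e' x }
  let κ : (β → F) →ₗ[F] (β → F) :=
    - ((Lc f₁ e') ∘ₗ ((Matrix.toLin' (g : Matrix (Fin 2 × β) (Fin 2 × β) F) - LinearMap.id) ∘ₗ te))
  have hκ : ∀ w, κ w = - Lc f₁ e' ((g : Matrix (Fin 2 × β) (Fin 2 × β) F) *ᵥ (ten e' w) - ten e' w) := by
    intro w
    simp only [κ, te, Matrix.toLin'_apply, _root_.LinearMap.neg_apply, _root_.LinearMap.coe_comp, _root_.LinearMap.coe_mk, _root_.AddHom.coe_mk, _root_.Function.comp_apply, _root_.LinearMap.sub_apply, _root_.Matrix.toLin'_apply, _root_.LinearMap.id_coe, _root_.id_eq, _root_.map_sub, _root_.neg_sub]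
  have hin : ∀ w, ∃ w', (g : Matrix (Fin 2 × β) (Fin 2 × β) F) *ᵥ (ten e' w) - ten e' w = ten e w' := by
    intro w
    apply exists_ten_of_L T he
    apply eq_zero_of_B T
    intro y
    rw [← form_L T]
    have h1 := hg (ten e' w) (ten e y)
    rw [hfix] at h1
    rw [sub_eq_add_neg, T.bil.add_left, h1, ← neg_one_smul F (ten e' w), T.bil.smul_left]
    ring
  have hge' : ∀ w, (g : Matrix (Fin 2 × β) (Fin 2 × β) F) *ᵥ (ten e' w) = ten e' w + ten e (κ w) := by
    intro w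
    obtain ⟨w', hw'⟩ := hin w
    rw [hκ, hw', L_ten T, hee', neg_smul, one_smul, neg_neg, ← hw']
    abel
  refine ⟨κ, ?_, ?_⟩
  · intro x y
    have h1 := hg (ten e' x) (ten e' y)
    rw [hge', hge', T.bil.add_left, T.bil.add_right, T.bil.add_right, T.ten, T.ten, T.ten, T.ten,
      T.sym.alternating, T.sym.alternating, he', hee'] at h1
    linear_combination -h1
  · intro v
    have h1 : Lc f₁ e (v - ten e' (Lc f₁ e v)) = 0 := by
      rw [map_sub, L_ten T, he', one_smul, sub_self]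
    obtain ⟨w, hw⟩ := exists_ten_of_L T he h1
    have h2 : v = ten e w + ten e' (Lc f₁ e v) := by rw [← hw]; abel
    conv_lhs => rw [h2]
    rw [Matrix.mulVec_add, hfix, hge', ← add_assoc, ← h2]

lemma kel_fix {e : Fin 2 → F} {κ : (β → F) →ₗ[F] (β → F)} {g : GL (Fin 2 × β) F} (h : Kel f₁ e κ g) (w : β → F) :
    (g : Matrix (Fin 2 × β) (Fin 2 × β) F) *ᵥ (ten e w) = ten e w := by
  rw [h, L_ten T, T.sym.alternating, zero_smul, map_zero, ten_zero_right, add_zero]

lemma kel_mul {e : Fin 2 → F} {κ κ' : (β → F) →ₗ[F] (β → F)} {g g' : GL (Fin 2 × β) F}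
    (h : Kel f₁ e κ g) (h' : Kel f₁ e κ' g') : Kel f₁ e (κ + κ') (g * g') := by
  intro v
  rw [gl_mul_mulVec, h' v, Matrix.mulVec_add, kel_fix T h, h v, LinearMap.add_apply, ten_add_right, add_assoc]

lemma kel_inv {e : Fin 2 → F} {κ : (β → F) →ₗ[F] (β → F)} {g : GL (Fin 2 × β) F}
    (h : Kel f₁ e κ g) : Kel f₁ e (-κ) g⁻¹ := by
  intro v
  have h1 : (g : Matrix (Fin 2 × β) (Fin 2 × β) F) *ᵥ (v + ten e ((-κ) (Lc f₁ e v))) = v := by
    rw [Matrix.mulVec_add, kel_fix T h, h v, LinearMap.neg_apply, add_assoc, ← ten_add_right, add_neg_cancel,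
      ten_zero_right, add_zero]
  calc _ = ((g⁻¹ : GL (Fin 2 × β) F) : Matrix (Fin 2 × β) (Fin 2 × β) F) *ᵥ
        ((g : Matrix (Fin 2 × β) (Fin 2 × β) F) *ᵥ (v + ten e ((-κ) (Lc f₁ e v)))) := by rw [h1]
    _ = _ := gl_inv_mulVec _ _

/-- conjugation of a linear map by an invertible matrix -/
def cj (b : GL β F) (κ : (β → F) →ₗ[F] (β → F)) : (β → F) →ₗ[F] (β → F) :=
  (Matrix.toLin' (b : Matrix β β F)) ∘ₗ κ ∘ₗ (Matrix.toLin' ((b⁻¹ : GL β F) : Matrix β β F))

omit T in
lemma cj_apply (b : GL β F) (κ : (β → F) →ₗ[F] (β → F)) (x : β → F) :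
    cj b κ x = (b : Matrix β β F) *ᵥ (κ (((b⁻¹ : GL β F) : Matrix β β F) *ᵥ x)) := by
  simp only [cj, Matrix.toLin'_apply, _root_.Cfsg.Agent.H919.Four.cj, _root_.Matrix.coe_units_inv, _root_.LinearMap.coe_comp, _root_.Function.comp_apply, _root_.Matrix.toLin'_apply]

lemma L_kr (e : Fin 2 → F) (b : GL β F) (v : Fin 2 × β → F) :
    Lc f₁ e ((kr ((1 : GL (Fin 2) F), b) : Matrix (Fin 2 × β) (Fin 2 × β) F) *ᵥ v) =
      (b : Matrix β β F) *ᵥ (Lc f₁ e v) := by
  rw [Lc, coe_kr, lc_kron]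
  simp

/-- conjugation by `1 ⊗ b` -/
lemma kel_conj {e : Fin 2 → F} {κ : (β → F) →ₗ[F] (β → F)} {g : GL (Fin 2 × β) F} (h : Kel f₁ e κ g) (b : GL β F) :
    Kel f₁ e (cj b κ) (kr ((1 : GL (Fin 2) F), b) * g * (kr ((1 : GL (Fin 2) F), b))⁻¹) := by
  intro v
  have hinv : (kr ((1 : GL (Fin 2) F), b))⁻¹ = kr ((1 : GL (Fin 2) F), b⁻¹) := by
    rw [← map_inv, Prod.inv_mk, inv_one]
  rw [gl_mul_mulVec, gl_mul_mulVec, h, Matrix.mulVec_add, gl_mulVec_inv, kr_mulVec_ten, hinv, L_kr T, cj_apply,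
    Units.val_one, Matrix.one_mulVec]

lemma kel_ext {e : Fin 2 → F} (he : e ≠ 0) {κ κ' : (β → F) →ₗ[F] (β → F)} {g : GL (Fin 2 × β) F}
    (h : Kel f₁ e κ g) (h' : Kel f₁ e κ' g) : κ = κ' := by
  obtain ⟨e', he'⟩ := exists_dual T he
  apply LinearMap.ext
  intro w
  have h1 := h (ten e' w)
  rw [h' (ten e' w), L_ten T, he', one_smul] at h1
  exact (ten_right_injective he (add_left_cancel h1)).symm

omit T in
lemma kel_one (e : Fin 2 → F) : Kel (β := β) f₁ e 0 (1 : GL (Fin 2 × β) F) := by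
  intro v
  rw [LinearMap.zero_apply, ten_zero_right, add_zero, Units.val_one, Matrix.one_mulVec]

/-- `t_c ⊗ 1` -/
lemma kel_tU (e : Fin 2 → F) (c : F) {a : GL (Fin 2) F}
    (ha : ∀ u, (a : Matrix _ _ F) *ᵥ u = u + (c * f₁ u e) • e) :
    Kel f₁ e (c • LinearMap.id) (kr (a, (1 : GL β F))) := by
  have key : Matrix.toLin' (kr (a, (1 : GL β F)) : Matrix (Fin 2 × β) (Fin 2 × β) F) =
      LinearMap.id + ({ toFun := fun w => ten e w
                        map_add' := fun x y => ten_add_right e x y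
                        map_smul' := fun c x => ten_smul_right c e x } : (β → F) →ₗ[F] (Fin 2 × β → F)) ∘ₗ
        ((c • LinearMap.id) ∘ₗ (Lc f₁ e)) := by
    apply linearMap_ext_ten
    intro u w
    rw [Matrix.toLin'_apply, kr_mulVec_ten, ha]
    show ten (u + (c * f₁ u e) • e) (((1 : GL β F) : Matrix β β F) *ᵥ w) = ten u w + ten e (c • (Lc f₁ e (ten u w)))
    rw [L_ten T, Units.val_one, Matrix.one_mulVec, ten_add_left, ten_smul_left, ten_smul_right, ten_smul_right,
      smul_smul]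
  intro v
  have h := congrArg (fun X : (Fin 2 × β → F) →ₗ[F] (Fin 2 × β → F) => X v) key
  rw [Matrix.toLin'_apply] at h
  exact h

/-- the elements `t_c ⊗ 1` lie in `M` -/
lemma exists_A (hM : Grp f₁ B f M) (e : Fin 2 → F) (c : F) : ∃ a : GL (Fin 2) F,
    (∀ u, (a : Matrix _ _ F) *ᵥ u = u + (c * f₁ u e) • e) ∧ kr (a, (1 : GL β F)) ∈ M ∧
    Kel f₁ e (c • LinearMap.id) (kr (a, (1 : GL β F))) := by
  obtain ⟨a, ha, hiso⟩ := exists_tU T.sym c e
  exact ⟨a, ha, T.kr_one_mem hM hiso, kel_tU T e c ha⟩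

/-- Step (a). -/
lemma kel_a (hM : Grp f₁ B f M) {s : β → F} (hs : s ≠ 0) (hQs : Q s = 0) (hnc : NoC B M s)
    {e : Fin 2 → F} (he : e ≠ 0) {κ : (β → F) →ₗ[F] (β → F)} {g : GL (Fin 2 × β) F} (hg : g ∈ M)
    (h : Kel f₁ e κ g) (h0 : κ s = 0) (h1 : ∀ x, B s x = 0 → ∃ c : F, κ x = c • s) : κ = 0 := by
  obtain ⟨a, b, -, -, hx⟩ := T.levi hM hs hQs hnc hg
    (by
      intro u
      rw [h, L_ten T, map_smul, h0, smul_zero, ten_zero_right, add_zero])
    (by
      intro v hv
      have h2 : B s (Lc f₁ e v) = 0 := by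
        rw [T.qf.comm, ← form_L T, T.form_R, hv, T.f₁_zero_left]
      obtain ⟨c, hc⟩ := h1 _ h2
      refine ⟨c • e, ?_⟩
      rw [h, hc, ten_smul_left, ten_smul_right])
  have hb : b = 1 := by
    apply Units.ext
    apply Matrix.ext_of_mulVec_single
    intro i
    have h2 := kel_fix T h (Pi.single i 1)
    rw [← hx, kr_mulVec_ten, Units.val_one, Matrix.one_mulVec] at h2
    have h3 := ten_right_injective he h2
    rw [Units.val_one, Matrix.one_mulVec]
    exact h3
  have hg1 : g = 1 := by rw [← hx, hb]; exact map_one kr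
  rw [hg1] at h
  exact kel_ext T he h (kel_one e)

end Cfsg.Agent.H919.Four
end

-- part: H919/FourB
section
/-!
# `Sp_2(q) ⊗ O_4(q)` in `Sp_8(q)`: `X ∩ Q_E` is scalar and `Stab_X(e ⊗ W) ≤ H` (helper919)
-/

set_option autoImplicit false
set_option linter.unusedSectionVars false

open Cfsg Cfsg.Geo Matrix
open scoped Kronecker

namespace Cfsg.Agent.H919.Four

open Cfsg.Agent.H929 (QF rB)
open Cfsg.Agent.H872 Cfsg.Agent.H924.Ten

variable {β : Type} [Fintype β] [DecidableEq β] {F : Type*} [Field F]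
variable {f₁ : (Fin 2 → F) → (Fin 2 → F) → F} {Q : (β → F) → F} {B : (β → F) → (β → F) → F}
  {f : (Fin 2 × β → F) → (Fin 2 × β → F) → F}

variable (T : Tens f₁ Q B f) {M : Subgroup (GL (Fin 2 × β) F)} (hM : Grp f₁ B f M)

include T

/-- a vector orthogonal to `s^⊥` is a multiple of `s` -/
lemma mem_span_of_perp {s : β → F} (hs : s ≠ 0) {x : β → F} (h : ∀ a, B s a = 0 → B x a = 0) :
    ∃ c : F, x = c • s := by
  obtain ⟨y₀, hy₀⟩ := T.nd s hs
  set y := (B s y₀)⁻¹ • y₀ with hy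
  have hsy : B s y = 1 := by rw [hy, T.qf.smul_right, inv_mul_cancel₀ hy₀]
  refine ⟨B x y, ?_⟩
  have h1 : x - B x y • s = 0 := by
    apply eq_zero_of_B T
    intro z
    have h2 : B s (z - B s z • y) = 0 := by
      rw [T.qf.sub_right, T.qf.smul_right, hsy, mul_one, sub_self]
    have h3 := h _ h2
    rw [T.qf.sub_right, T.qf.smul_right] at h3
    rw [T.qf.sub_left, T.qf.smul_left]
    linear_combination h3
  exact sub_eq_zero.mp h1

lemma sieg_s {s a : β → F} (hQs : Q s = 0) (hsa : B s a = 0) {b : GL β F} (hb : Sieg Q B s a b) :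
    (b : Matrix β β F) *ᵥ s = s := by
  have hss : B s s = 0 := by rw [T.qf.self, hQs, mul_zero]
  rw [hb, hss, hsa, mul_zero, zero_smul, zero_smul, add_zero, sub_zero, sub_zero]

lemma sieg_perp {s a : β → F} {b : GL β F} (hb : Sieg Q B s a b) {x : β → F} (hx : B s x = 0) :
    (b : Matrix β β F) *ᵥ x = x - B x a • s := by
  rw [hb, T.qf.comm x s, hx, mul_zero, zero_smul, zero_smul, add_zero, sub_zero]

/-- the Siegel elements and their inverses -/
lemma sieg_inv {s a : β → F} (hQs : Q s = 0) (hsa : B s a = 0) {b : GL β F} (hb : Sieg Q B s a b) :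
    Sieg Q B s (-a) b⁻¹ := by
  have hss : B s s = 0 := by rw [T.qf.self, hQs, mul_zero]
  intro x
  have h1 : (b : Matrix β β F) *ᵥ (x + B x s • (-a) - B x (-a) • s - (Q (-a) * B x s) • s) = x := by
    rw [Matrix.mulVec_sub, Matrix.mulVec_sub, Matrix.mulVec_add, Matrix.mulVec_smul, Matrix.mulVec_smul,
      Matrix.mulVec_smul, sieg_s T hQs hsa hb, hb x, Matrix.mulVec_neg, sieg_perp T hb hsa, T.qf.neg_right, T.qf.neg,
      T.qf.self]
    funext i
    simp only [Pi.add_apply, Pi.sub_apply, Pi.smul_apply, Pi.neg_apply, smul_eq_mul]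
    ring
  calc _ = ((b⁻¹ : GL β F) : Matrix β β F) *ᵥ ((b : Matrix β β F) *ᵥ
        (x + B x s • (-a) - B x (-a) • s - (Q (-a) * B x s) • s)) := by rw [h1]
    _ = _ := gl_inv_mulVec _ _

/-- the commutator of `g` with `1 ⊗ b` -/
lemma kel_comm (hM : Grp f₁ B f M) {e : Fin 2 → F} {κ : (β → F) →ₗ[F] (β → F)} {g : GL (Fin 2 × β) F} (hg : g ∈ M)
    (h : Kel f₁ e κ g) {b : GL β F} (hb : ∀ x, Q ((b : Matrix β β F) *ᵥ x) = Q x) :
    ∃ g' ∈ M, Kel f₁ e (cj b κ - κ) g' := by
  have hk := T.one_kr_mem hM (T.B_iso hb)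
  refine ⟨kr ((1 : GL (Fin 2) F), b) * g * (kr ((1 : GL (Fin 2) F), b))⁻¹ * g⁻¹,
    M.mul_mem (M.mul_mem (M.mul_mem hk hg) (M.inv_mem hk)) (M.inv_mem hg), ?_⟩
  rw [sub_eq_add_neg]
  exact kel_mul T (kel_conj T h b) (kel_inv T h)

lemma selfAdj_cj {κ : (β → F) →ₗ[F] (β → F)} (hκ : ∀ x y, B (κ x) y = B x (κ y)) {b : GL β F}
    (hb : ∀ x, Q ((b : Matrix β β F) *ᵥ x) = Q x) (x y : β → F) :
    B ((cj b κ - κ) x) y = B x ((cj b κ - κ) y) := by
  have hb' := T.B_iso hb
  rw [LinearMap.sub_apply, LinearMap.sub_apply, T.qf.sub_left, T.qf.sub_right, hκ, cj_apply, cj_apply]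
  congr 1
  have h1 : ∀ z w, B ((b : Matrix β β F) *ᵥ z) w = B z (((b⁻¹ : GL β F) : Matrix β β F) *ᵥ w) := by
    intro z w
    have := hb' z (((b⁻¹ : GL β F) : Matrix β β F) *ᵥ w)
    rw [gl_mulVec_inv] at this
    exact this
  rw [h1, hκ, T.qf.comm, ← h1, T.qf.comm]

/-- Step (b). -/
lemma kel_b (hM : Grp f₁ B f M) {s : β → F} (hs : s ≠ 0) (hQs : Q s = 0) (hnc : NoC B M s)
    {e : Fin 2 → F} (he : e ≠ 0) {κ : (β → F) →ₗ[F] (β → F)} {g : GL (Fin 2 × β) F} (hg : g ∈ M)
    (h : Kel f₁ e κ g) (hκ : ∀ x y, B (κ x) y = B x (κ y)) {c : F} (h0 : κ s = c • s) : κ = c • LinearMap.id := by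
  have hss : B s s = 0 := by rw [T.qf.self, hQs, mul_zero]
  have hκp : ∀ x, B s x = 0 → B s (κ x) = 0 := by
    intro x hx
    rw [← hκ, h0, T.qf.smul_left, hx, mul_zero]
  have hcomm : ∀ (a : β → F) (b : GL β F), B s a = 0 → Sieg Q B s a b →
      (∀ x, Q ((b : Matrix β β F) *ᵥ x) = Q x) → cj b κ - κ = 0 := by
    intro a b hsa hb hiso
    obtain ⟨g', hg', hk⟩ := kel_comm T hM hg h hiso
    have hbi := sieg_inv T hQs hsa hb
    have hsa' : B s (-a) = 0 := by rw [T.qf.neg_right, hsa, neg_zero]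
    refine kel_a T hM hs hQs hnc he hg' hk ?_ ?_
    · rw [LinearMap.sub_apply, cj_apply, sieg_s T hQs hsa' hbi, h0, Matrix.mulVec_smul, sieg_s T hQs hsa hb, sub_self]
    · intro x hx
      rw [LinearMap.sub_apply, cj_apply, sieg_perp T hbi hx, map_sub, map_smul, h0, Matrix.mulVec_sub,
        Matrix.mulVec_smul, Matrix.mulVec_smul, sieg_s T hQs hsa hb, sieg_perp T hb (hκp x hx)]
      refine ⟨- B (κ x) a - B x (-a) * c, ?_⟩
      funext i
      simp only [Pi.sub_apply, Pi.smul_apply, smul_eq_mul]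
      ring
  obtain ⟨a₀, -, hA, hKA⟩ := exists_A T hM e (-c)
  have h2 := kel_mul T h hKA
  have h3 := kel_a T hM hs hQs hnc he (M.mul_mem hg hA) h2
    (by
      rw [LinearMap.add_apply, h0, LinearMap.smul_apply, LinearMap.id_apply, neg_smul, add_neg_cancel])
    (by
      intro x hx
      apply mem_span_of_perp T hs
      intro a ha
      obtain ⟨b, hb, hiso⟩ := T.exists_sieg hQs ha
      have h4 := hcomm a b ha hb hiso
      -- b κ x = κ b x
      have h5 : (b : Matrix β β F) *ᵥ (κ x) = κ ((b : Matrix β β F) *ᵥ x) := by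
        have h6 := congrArg (fun X : (β → F) →ₗ[F] (β → F) => X ((b : Matrix β β F) *ᵥ x)) h4
        simp only [LinearMap.sub_apply, cj_apply, gl_inv_mulVec, LinearMap.zero_apply] at h6
        exact sub_eq_zero.mp h6
      rw [sieg_perp T hb hx, sieg_perp T hb (hκp x hx), map_sub, map_smul, h0, smul_smul] at h5
      have h6 := sub_right_injective h5
      have h7 : B (κ x) a = B x a * c := by
        obtain ⟨y, hy⟩ := T.nd s hs
        have h8 := congrArg (fun z => B z y) h6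
        simp only [T.qf.smul_left] at h8
        exact mul_right_cancel₀ hy h8
      rw [LinearMap.add_apply, LinearMap.smul_apply, LinearMap.id_apply, T.qf.add_left, T.qf.smul_left, h7]
      ring)
  have h4 : κ = - (-c • LinearMap.id) := eq_neg_of_add_eq_zero_left h3
  rw [h4]
  apply LinearMap.ext
  intro x
  simp

omit T in
lemma trace_cj (b : GL β F) (κ : (β → F) →ₗ[F] (β → F)) : LinearMap.trace F (β → F) (cj b κ) =
    LinearMap.trace F (β → F) κ := by
  unfold cj
  rw [LinearMap.trace_comp_comm', LinearMap.comp_assoc, ← Matrix.toLin'_mul, ← Units.val_mul, inv_mul_cancel,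
    Units.val_one, Matrix.toLin'_one, LinearMap.comp_id]

/-- **`X ∩ Q_E` is scalar.** -/
theorem kel_scalar (hM : Grp f₁ B f M) (hβ : (Fintype.card β : F) ≠ 0) (hβ3 : 3 ≤ Fintype.card β)
    {s : β → F} (hs : s ≠ 0) (hQs : Q s = 0) (hnc : NoC B M s)
    {e : Fin 2 → F} (he : e ≠ 0) {κ : (β → F) →ₗ[F] (β → F)} {g : GL (Fin 2 × β) F} (hg : g ∈ M)
    (h : Kel f₁ e κ g) (hκ : ∀ x y, B (κ x) y = B x (κ y)) : ∃ c : F, κ = c • LinearMap.id := by
  have hss : B s s = 0 := by rw [T.qf.self, hQs, mul_zero]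
  -- scalar differences vanish
  have htr : ∀ (κ : (β → F) →ₗ[F] (β → F)) (b : GL β F) (c : F), cj b κ - κ = c • LinearMap.id → c = 0 := by
    intro κ b c hc
    have h1 := congrArg (LinearMap.trace F (β → F)) hc
    rw [map_sub, trace_cj, sub_self, map_smul, LinearMap.trace_id, Module.finrank_fintype_fun_eq_card,
      smul_eq_mul] at h1
    exact (mul_eq_zero.mp h1.symm).resolve_right hβ
  -- (c1)
  have c1 : ∀ (κ : (β → F) →ₗ[F] (β → F)) (g : GL (Fin 2 × β) F), g ∈ M → Kel f₁ e κ g →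
      (∀ x y, B (κ x) y = B x (κ y)) → B (κ s) s = 0 → ∃ c : F, κ = c • LinearMap.id := by
    intro κ g hg h hκ h0
    have h1 : ∃ c : F, κ s = c • s := by
      apply mem_span_of_perp T hs
      intro a ha
      obtain ⟨b, hb, hiso⟩ := T.exists_sieg hQs ha
      obtain ⟨g', hg', hk⟩ := kel_comm T hM hg h hiso
      have ha' : B s (-a) = 0 := by rw [T.qf.neg_right, ha, neg_zero]
      have h2 : (cj b κ - κ) s = (- B (κ s) a) • s := by
        rw [LinearMap.sub_apply, cj_apply, sieg_s T hQs ha' (sieg_inv T hQs ha hb),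
          sieg_perp T hb (by rw [T.qf.comm]; exact h0)]
        rw [neg_smul]; abel
      have h3 := kel_b T hM hs hQs hnc he hg' hk (selfAdj_cj T hκ hiso) h2
      have h4 := htr _ _ _ h3
      exact neg_eq_zero.mp h4
    obtain ⟨c, hc⟩ := h1
    exact ⟨c, kel_b T hM hs hQs hnc he hg h hκ hc⟩
  apply c1 κ g hg h hκ
  -- a vector of s^⊥ outside F s
  obtain ⟨a, ha, has⟩ : ∃ a, B s a = 0 ∧ ∀ c : F, a ≠ c • s := by
    by_contra hcon
    push Not at hcon
    let L : (β → F) →ₗ[F] F :=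
      { toFun := fun x => B s x
        map_add' := fun x y => T.qf.add_right s x y
        map_smul' := fun c x => T.qf.smul_right c s x }
    have h1 : LinearMap.ker L ≤ Submodule.span F {s} := by
      intro x hx
      obtain ⟨c, hc⟩ := hcon x hx
      rw [hc]
      exact Submodule.smul_mem _ _ (Submodule.mem_span_singleton_self s)
    have h2 := L.finrank_range_add_finrank_ker
    have h3 := (Submodule.finrank_mono h1).trans (finrank_span_singleton hs).le
    have h4 : Module.finrank F (LinearMap.range L) ≤ 1 := by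
      refine (Submodule.finrank_le _).trans ?_
      rw [Module.finrank_self]
    rw [Module.finrank_fintype_fun_eq_card] at h2
    omega
  obtain ⟨b, hb, hiso⟩ := T.exists_sieg hQs ha
  obtain ⟨g', hg', hk⟩ := kel_comm T hM hg h hiso
  have ha' : B s (-a) = 0 := by rw [T.qf.neg_right, ha, neg_zero]
  have hbi := sieg_inv T hQs ha hb
  have e1 : (cj b κ - κ) s = (b : Matrix β β F) *ᵥ (κ s) - κ s := by
    rw [LinearMap.sub_apply, cj_apply, sieg_s T hQs ha' hbi]
  have h2 : B ((cj b κ - κ) s) s = 0 := by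
    rw [e1, T.qf.sub_left]
    have h3 := T.B_iso hiso (κ s) s
    rw [sieg_s T hQs ha hb] at h3
    rw [h3, sub_self]
  obtain ⟨c, hc⟩ := c1 _ g' hg' hk (selfAdj_cj T hκ hiso) h2
  have h3 := htr _ _ _ hc
  rw [hc, h3, zero_smul, LinearMap.zero_apply, hb] at e1
  by_contra hne
  apply has (B (κ s) a / B (κ s) s + Q a)
  have e2 : B (κ s) s • a = (B (κ s) a + Q a * B (κ s) s) • s := by
    rw [add_smul]
    have : (0 : β → F) = B (κ s) s • a - B (κ s) a • s - (Q a * B (κ s) s) • s := by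
      rw [e1]; abel
    rw [sub_sub] at this
    exact (sub_eq_zero.mp this.symm)
  have e3 := congrArg (fun z => (B (κ s) s)⁻¹ • z) e2
  simp only [smul_smul, inv_mul_cancel₀ hne, one_smul] at e3
  refine e3.trans ?_
  congr 1
  field_simp

/-- **`Stab_X(e ⊗ W) ≤ H`.** -/
theorem stabE (hM : Grp f₁ B f M) (hβ : (Fintype.card β : F) ≠ 0) (hβ3 : 3 ≤ Fintype.card β)
    {s : β → F} (hs : s ≠ 0) (hQs : Q s = 0) (hnc : NoC B M s)
    {e : Fin 2 → F} (he : e ≠ 0) {g : GL (Fin 2 × β) F} (hg : g ∈ M)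
    (hE : ∀ w, ∃ w', (g : Matrix (Fin 2 × β) (Fin 2 × β) F) *ᵥ (ten e w) = ten e w') :
    ∃ x : GL (Fin 2) F × GL β F, kr x = g := by
  have hiso := hM.iso g hg
  obtain ⟨e', he'⟩ := exists_dual T he
  have hee' : f₁ e e' = -1 := by rw [T.sym.skew, he']
  -- b
  let te : (β → F) →ₗ[F] (Fin 2 × β → F) :=
    { toFun := fun w => ten e w
      map_add' := fun x y => ten_add_right e x y
      map_smul' := fun c x => ten_smul_right c e x }
  let Z : (β → F) →ₗ[F] (β → F) :=
    - ((Lc f₁ e') ∘ₗ ((Matrix.toLin' (g : Matrix (Fin 2 × β) (Fin 2 × β) F)) ∘ₗ te))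
  have hZ : ∀ w, (g : Matrix (Fin 2 × β) (Fin 2 × β) F) *ᵥ (ten e w) = ten e (Z w) := by
    intro w
    obtain ⟨w', hw'⟩ := hE w
    have : Z w = - Lc f₁ e' ((g : Matrix (Fin 2 × β) (Fin 2 × β) F) *ᵥ (ten e w)) := by
      simp only [Z, te, Matrix.toLin'_apply, _root_.LinearMap.neg_apply, _root_.LinearMap.coe_comp, _root_.LinearMap.coe_mk, _root_.AddHom.coe_mk, _root_.Function.comp_apply, _root_.Matrix.toLin'_apply]
    rw [this, hw', L_ten T, hee', neg_smul, one_smul, neg_neg]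
  obtain ⟨b, hb⟩ := exists_gl_of_injective Z (by
    intro w hw
    have h1 := hZ w
    rw [hw, ten_zero_right] at h1
    rcases ten_eq_zero (gl_mulVec_eq_zero g h1) with h | h
    · exact absurd h he
    · exact h)
  have hgb : ∀ w, (g : Matrix (Fin 2 × β) (Fin 2 × β) F) *ᵥ (ten e w) = ten e ((b : Matrix β β F) *ᵥ w) := by
    intro w; rw [hZ, hb]
  -- conjugate of t_1
  obtain ⟨a₀, -, hA, hKA⟩ := exists_A T hM e 1
  set t := kr (a₀, (1 : GL β F)) with ht
  have htM : g * t * g⁻¹ ∈ M := M.mul_mem (M.mul_mem hg hA) (M.inv_mem hg)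
  have hgbi : ∀ w, ((g⁻¹ : GL (Fin 2 × β) F) : Matrix (Fin 2 × β) (Fin 2 × β) F) *ᵥ (ten e w) =
      ten e (((b⁻¹ : GL β F) : Matrix β β F) *ᵥ w) := by
    intro w
    have h1 := hgb (((b⁻¹ : GL β F) : Matrix β β F) *ᵥ w)
    rw [gl_mulVec_inv] at h1
    rw [← h1, gl_inv_mulVec]
  obtain ⟨κ, hκ, hK⟩ := exists_kel T he (hM.iso _ htM) (by
    intro w
    rw [gl_mul_mulVec, gl_mul_mulVec, hgbi, kel_fix T hKA, hgb, gl_mulVec_inv])
  obtain ⟨c, hc⟩ := kel_scalar T hM hβ hβ3 hs hQs hnc he htM hK hκ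
  -- b (L v) = c L (g v)
  have hbL : ∀ v, (b : Matrix β β F) *ᵥ (Lc f₁ e v) = c • Lc f₁ e ((g : Matrix (Fin 2 × β) (Fin 2 × β) F) *ᵥ v) := by
    intro v
    have h1 := hK ((g : Matrix (Fin 2 × β) (Fin 2 × β) F) *ᵥ v)
    rw [gl_mul_mulVec, gl_mul_mulVec, gl_inv_mulVec, hKA v, one_smul, LinearMap.id_apply, Matrix.mulVec_add, hgb, hc,
      LinearMap.smul_apply, LinearMap.id_apply] at h1
    exact ten_right_injective he (add_left_cancel h1)
  have hbB : ∀ x y, B ((b : Matrix β β F) *ᵥ x) ((b : Matrix β β F) *ᵥ y) = c * B x y := by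
    intro x y
    have h1 := hbL (ten e' x)
    rw [L_ten T, he', one_smul] at h1
    rw [h1, T.qf.smul_left, ← form_L T, ← hgb, hiso, T.ten, he', one_mul]
  have hc0 : c ≠ 0 := by
    intro h0
    obtain ⟨y, hy⟩ := T.nd s hs
    have h1 := hbB (((b⁻¹ : GL β F) : Matrix β β F) *ᵥ s) (((b⁻¹ : GL β F) : Matrix β β F) *ᵥ y)
    rw [gl_mulVec_inv, gl_mulVec_inv, h0, zero_mul] at h1
    exact hy h1
  -- the element a with a e = e, a e' = c⁻¹ e'
  let A' : (Fin 2 → F) →ₗ[F] (Fin 2 → F) :=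
    { toFun := fun u => - f₁ u e' • e + (c⁻¹ * f₁ u e) • e'
      map_add' := fun x y => by
        rw [T.sym.bilinear.add_left, T.sym.bilinear.add_left]
        funext i
        simp only [Pi.add_apply, Pi.smul_apply, smul_eq_mul]
        ring
      map_smul' := fun d x => by
        rw [T.sym.bilinear.smul_left, T.sym.bilinear.smul_left]
        funext i
        simp only [Pi.add_apply, Pi.smul_apply, smul_eq_mul, RingHom.id_apply]
        ring }
  have hA' : ∀ u, A' u = - f₁ u e' • e + (c⁻¹ * f₁ u e) • e' := fun u => rfl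
  have hAm : ∀ u v, f₁ (A' u) (A' v) = c⁻¹ * f₁ u v := by
    intro u v
    conv_rhs => rw [expand T he' u, expand T he' v]
    rw [hA', hA']
    simp only [T.sym.bilinear.add_left, T.sym.bilinear.add_right, T.sym.bilinear.smul_left,
      T.sym.bilinear.smul_right, T.sym.alternating, he', hee']
    ring
  obtain ⟨a, ha⟩ := exists_gl_of_injective A' (by
    intro u hu
    apply T.eq_zero_of_f₁
    intro u'
    have h1 := hAm u u'
    rw [hu, T.f₁_zero_left] at h1
    exact ((mul_eq_zero.mp h1.symm).resolve_left (inv_ne_zero hc0)))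
  have hae : (a : Matrix (Fin 2) (Fin 2) F) *ᵥ e = e := by
    rw [ha, hA', T.sym.alternating, mul_zero, zero_smul, add_zero, hee', neg_neg, one_smul]
  have hkM : kr (a, b) ∈ M := hM.mem a b c⁻¹ (inv_ne_zero hc0)
    (by intro u v; rw [ha, ha, hAm])
    (by intro x y; rw [hbB, inv_inv])
  set k := kr (a, b) with hk
  obtain ⟨κ', hκ', hK'⟩ := exists_kel T he (hM.iso _ (M.mul_mem (M.inv_mem hkM) hg)) (by
    intro w
    rw [gl_mul_mulVec, hgb]
    have h1 : (k : Matrix (Fin 2 × β) (Fin 2 × β) F) *ᵥ (ten e w) = ten e ((b : Matrix β β F) *ᵥ w) := by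
      rw [hk, kr_mulVec_ten]
      show ten ((a : Matrix (Fin 2) (Fin 2) F) *ᵥ e) ((b : Matrix β β F) *ᵥ w) = _
      rw [hae]
    rw [← h1, gl_inv_mulVec])
  obtain ⟨c', hc'⟩ := kel_scalar T hM hβ hβ3 hs hQs hnc he (M.mul_mem (M.inv_mem hkM) hg) hK' hκ'
  obtain ⟨a₁, -, -, hKA₁⟩ := exists_A T hM e c'
  have hfin : k⁻¹ * g = kr (a₁, (1 : GL β F)) := by
    apply gl_ext_ten
    intro u w
    rw [hK', hKA₁, hc']
  refine ⟨(a, b) * (a₁, 1), ?_⟩
  rw [map_mul, ← hfin, ← hk, mul_inv_cancel_left]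

end Cfsg.Agent.H919.Four
end

-- part: H919/FourC
section
/-!
# `Sp_2(q) ⊗ O_4(q)` in `Sp_8(q)`: reflections, unipotent elements (helper919)
-/

set_option autoImplicit false
set_option linter.unusedSectionVars false

open Cfsg Cfsg.Geo Matrix
open scoped Kronecker

namespace Cfsg.Agent.H919.Four

open Cfsg.Agent.H929 (QF rB)
open Cfsg.Agent.H872 Cfsg.Agent.H924.Ten

variable {β : Type} [Fintype β] [DecidableEq β] {F : Type*} [Field F]
variable {f₁ : (Fin 2 → F) → (Fin 2 → F) → F} {Q : (β → F) → F} {B : (β → F) → (β → F) → F}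
  {f : (Fin 2 × β → F) → (Fin 2 × β → F) → F}

variable (T : Tens f₁ Q B f) {M : Subgroup (GL (Fin 2 × β) F)} (hM : Grp f₁ B f M)

include T

/-- the reflection in a nonsingular vector -/
lemma exists_refl {a : β → F} (ha : Q a ≠ 0) : ∃ r : GL β F,
    (∀ x, (r : Matrix β β F) *ᵥ x = x - (B x a / Q a) • a) ∧ (∀ x, Q ((r : Matrix β β F) *ᵥ x) = Q x) := by
  let R₀ : (β → F) →ₗ[F] (β → F) :=
    { toFun := fun x => x - (B x a / Q a) • a
      map_add' := fun x y => by
        rw [T.qf.add_left, add_div, add_smul]; abel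
      map_smul' := fun c x => by
        rw [T.qf.smul_left, mul_div_assoc, RingHom.id_apply, smul_sub, smul_smul] }
  have hR₀ : ∀ x, R₀ x = x - (B x a / Q a) • a := fun x => rfl
  have hB : ∀ x, B (R₀ x) a = - B x a := by
    intro x
    rw [hR₀, T.qf.sub_left, T.qf.smul_left, T.qf.self]
    field_simp
    ring
  obtain ⟨r, hr⟩ := exists_gl_of_injective R₀ (by
    intro x hx
    have h1 := hB x
    rw [hx, T.qf.zero_left] at h1
    have h2 : B x a = 0 := neg_eq_zero.mp h1.symm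
    rw [hR₀, h2, zero_div, zero_smul, sub_zero] at hx
    exact hx)
  refine ⟨r, fun x => by rw [hr, hR₀], fun x => ?_⟩
  rw [hr, hR₀, sub_eq_add_neg, ← neg_smul, T.qf.add, T.qf.smul, T.qf.smul_right]
  field_simp
  ring

/-- `O(W)` is transitive on the nonzero vectors of given norm; the elements are products of reflections in
vectors of `w^⊥` when both vectors lie in `w^⊥`. -/
lemma exists_iso_map {x y : β → F} (hx : x ≠ 0) (hy : y ≠ 0) (h : Q x = Q y) : ∃ b : GL β F,
    (∀ z, Q ((b : Matrix β β F) *ᵥ z) = Q z) ∧ (b : Matrix β β F) *ᵥ x = y := by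
  -- one reflection
  have step : ∀ x y : β → F, Q x = Q y → Q (x - y) ≠ 0 → ∃ b : GL β F,
      (∀ z, Q ((b : Matrix β β F) *ᵥ z) = Q z) ∧ (b : Matrix β β F) *ᵥ x = y := by
    intro x y h h1
    obtain ⟨r, hr, hiso⟩ := exists_refl T h1
    refine ⟨r, hiso, ?_⟩
    have h2 : B x (x - y) = Q (x - y) := by
      have h3 : Q (x - y) = Q x + Q y - B x y := by
        rw [sub_eq_add_neg, T.qf.add, T.qf.neg, T.qf.neg_right]; ring
      rw [h3, T.qf.sub_right, T.qf.self, h]; ring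
    rw [hr, h2, div_self h1, one_smul]
    abel
  have comp : ∀ x y z : β → F, (∃ b : GL β F, (∀ z, Q ((b : Matrix β β F) *ᵥ z) = Q z) ∧
      (b : Matrix β β F) *ᵥ x = y) → (∃ b : GL β F, (∀ z, Q ((b : Matrix β β F) *ᵥ z) = Q z) ∧
      (b : Matrix β β F) *ᵥ y = z) → ∃ b : GL β F, (∀ z, Q ((b : Matrix β β F) *ᵥ z) = Q z) ∧
      (b : Matrix β β F) *ᵥ x = z := by
    rintro x y z ⟨b, hb, hb1⟩ ⟨c, hc, hc1⟩
    exact ⟨c * b, fun w => by rw [gl_mul_mulVec, hc, hb], by rw [gl_mul_mulVec, hb1, hc1]⟩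
  by_cases h1 : Q (x - y) = 0
  · by_cases hQ : Q x = 0
    · -- singular
      have hxy : B x y = 0 := by
        have h3 : Q (x - y) = Q x + Q y - B x y := by
          rw [sub_eq_add_neg, T.qf.add, T.qf.neg, T.qf.neg_right]; ring
        rw [h3, ← h, hQ] at h1
        linear_combination -h1
      obtain ⟨z, hz1, hz2⟩ : ∃ z, B x z ≠ 0 ∧ B y z ≠ 0 := by
        obtain ⟨a, ha⟩ := T.nd x hx
        obtain ⟨b, hb⟩ := T.nd y hy
        by_cases h2 : B y a = 0
        · by_cases h3 : B x b = 0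
          · refine ⟨a + b, ?_, ?_⟩
            · rw [T.qf.add_right, h3, add_zero]; exact ha
            · rw [T.qf.add_right, h2, zero_add]; exact hb
          · exact ⟨b, h3, hb⟩
        · exact ⟨a, ha, h2⟩
      set t := z - (Q z / B x z) • x with ht
      have hxx : B x x = 0 := by rw [T.qf.self, hQ, mul_zero]
      have hQt : Q t = 0 := by
        rw [ht, sub_eq_add_neg, ← neg_smul, T.qf.add, T.qf.smul, hQ, T.qf.smul_right, T.qf.comm z x]
        field_simp
        ring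
      have hxt : B x t = B x z := by
        rw [ht, T.qf.sub_right, T.qf.smul_right, hxx, mul_zero, sub_zero]
      have hyt : B y t = B y z := by
        rw [ht, T.qf.sub_right, T.qf.smul_right, T.qf.comm y x, hxy, mul_zero, sub_zero]
      refine comp x t y (step x t (by rw [hQ, hQt]) ?_) (step t y (by rw [hQt, ← h, hQ]) ?_)
      · rw [sub_eq_add_neg, T.qf.add, T.qf.neg, T.qf.neg_right, hQ, hQt, hxt]
        intro h4; apply hz1; linear_combination -h4
      · rw [sub_eq_add_neg, T.qf.add, T.qf.neg, T.qf.neg_right, hQt, ← h, hQ, T.qf.comm t y, hyt]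
        intro h4; apply hz2; linear_combination -h4
    · refine comp x (-y) y (step x (-y) (by rw [T.qf.neg, h]) ?_) (step (-y) y (by rw [T.qf.neg]) ?_)
      · intro h2
        apply hQ
        have h3 : Q (x - y) = Q x + Q y - B x y := by
          rw [sub_eq_add_neg, T.qf.add, T.qf.neg, T.qf.neg_right]; ring
        rw [sub_neg_eq_add, T.qf.add] at h2
        rw [h3] at h1
        have h4 : (2 : F) * (2 * Q x) = 0 := by rw [← h] at h1 h2; linear_combination h1 + h2
        have h5 := (mul_eq_zero.mp h4).resolve_left T.two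
        exact (mul_eq_zero.mp h5).resolve_left T.two
      · have h2 : -y - y = (-2 : F) • y := by
          funext i; simp only [Pi.sub_apply, Pi.neg_apply, Pi.smul_apply, smul_eq_mul]; ring
        rw [h2, T.qf.smul]
        refine mul_ne_zero (pow_ne_zero _ (neg_ne_zero.mpr T.two)) ?_
        rw [← h]; exact hQ
  · exact step x y h h1

/-- an isometry of the plane fixing `e` is a transvection -/
lemma tU_form {a : GL (Fin 2) F} (ha : ∀ u v, f₁ ((a : Matrix _ _ F) *ᵥ u) ((a : Matrix _ _ F) *ᵥ v) = f₁ u v)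
    {e : Fin 2 → F} (he : e ≠ 0) (hae : (a : Matrix _ _ F) *ᵥ e = e) :
    ∃ c : F, ∀ u, (a : Matrix _ _ F) *ᵥ u = u + (c * f₁ u e) • e := by
  obtain ⟨e', he'⟩ := exists_dual T he
  have hee' : f₁ e e' = -1 := by rw [T.sym.skew, he']
  have h1 : ∀ u, f₁ ((a : Matrix _ _ F) *ᵥ u) e = f₁ u e := by
    intro u
    conv_lhs => rw [← hae]
    exact ha u e
  -- a e' = e' + c e
  have h2 := expand T he' ((a : Matrix _ _ F) *ᵥ e')
  rw [h1, he', one_smul] at h2
  refine ⟨- f₁ ((a : Matrix _ _ F) *ᵥ e') e', fun u => ?_⟩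
  conv_lhs => rw [expand T he' u, Matrix.mulVec_add, Matrix.mulVec_smul, Matrix.mulVec_smul, hae, h2]
  conv_rhs => rw [expand T he' u]
  simp only [T.sym.bilinear.add_left, T.sym.bilinear.smul_left, T.sym.alternating, he']
  funext i
  simp only [Pi.add_apply, Pi.smul_apply, smul_eq_mul]
  ring

omit T in
/-- a nilpotent endomorphism has a kernel -/
lemma exists_fix_of_nilp {ι : Type} [Fintype ι] [DecidableEq ι] [Nonempty ι] (a : Matrix ι ι F) {n : ℕ}
    (h : (a - 1) ^ n = 0) : ∃ v : ι → F, v ≠ 0 ∧ a *ᵥ v = v := by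
  classical
  have hex : ∃ v : ι → F, v ≠ 0 := ⟨fun _ => 1, fun h => by
    have := congrFun h (Classical.arbitrary ι); simp at this⟩
  obtain ⟨v, hv⟩ := hex
  have hP : ∃ m, (a - 1) ^ m *ᵥ v = 0 := ⟨n, by rw [h, Matrix.zero_mulVec]⟩
  have h1 := Nat.find_spec hP
  set m := Nat.find hP with hm
  have hm0 : m ≠ 0 := by
    intro h0
    rw [h0, pow_zero, Matrix.one_mulVec] at h1
    exact hv h1
  obtain ⟨k, hk⟩ := Nat.exists_eq_succ_of_ne_zero hm0
  refine ⟨(a - 1) ^ k *ᵥ v, ?_, ?_⟩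
  · intro h2
    exact Nat.find_min hP (by rw [← hm, hk]; exact Nat.lt_succ_self k) h2
  · rw [hk, Nat.succ_eq_add_one, pow_succ', ← Matrix.mulVec_mulVec, Matrix.sub_mulVec, Matrix.one_mulVec] at h1
    exact sub_eq_zero.mp h1

omit T in
lemma kr_eq_one {a : GL (Fin 2) F} {b : GL β F} (h : kr (a, b) = 1) (hne : ∃ w : β → F, w ≠ 0) :
    ∃ c : F, c ≠ 0 ∧ (∀ u, (a : Matrix (Fin 2) (Fin 2) F) *ᵥ u = c • u) ∧
      (∀ w, (b : Matrix β β F) *ᵥ w = c⁻¹ • w) := by
  have h1 : ∀ u w, ten ((a : Matrix (Fin 2) (Fin 2) F) *ᵥ u) ((b : Matrix β β F) *ᵥ w) = ten u w := by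
    intro u w
    have h2 := kr_mulVec_ten (a, b) u w
    rw [h, Units.val_one, Matrix.one_mulVec] at h2
    exact h2.symm
  obtain ⟨w₀, hw₀⟩ := hne
  obtain ⟨j, hj⟩ := Function.ne_iff.mp hw₀
  have hj' : w₀ j ≠ 0 := hj
  -- a u = c u with c = w₀ j / (b w₀) j
  have hb : ((b : Matrix _ _ F) *ᵥ w₀) j ≠ 0 := by
    intro h0
    have h2 := congrFun (h1 (Pi.single 0 1) w₀) (0, j)
    rw [ten_apply, ten_apply, h0, mul_zero] at h2
    simp at h2
    exact hj' h2.symm
  set c := w₀ j / ((b : Matrix _ _ F) *ᵥ w₀) j with hc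
  have hc0 : c ≠ 0 := div_ne_zero hj' hb
  have ha : ∀ u, (a : Matrix (Fin 2) (Fin 2) F) *ᵥ u = c • u := by
    intro u
    funext i
    have h2 := congrFun (h1 u w₀) (i, j)
    rw [ten_apply, ten_apply] at h2
    rw [Pi.smul_apply, smul_eq_mul, hc, div_mul_eq_mul_div, eq_div_iff hb]
    rw [h2, mul_comm]
  refine ⟨c, hc0, ha, fun w => ?_⟩
  have h2 := h1 (Pi.single 0 1) w
  rw [ha, ten_smul_left, ← ten_smul_right] at h2
  have h3 : (Pi.single 0 1 : Fin 2 → F) ≠ 0 := by
    intro h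
    have := congrFun h 0
    simp at this
  have h4 := ten_right_injective h3 h2
  rw [show c⁻¹ • w = c⁻¹ • (c • ((b : Matrix β β F) *ᵥ w)) by rw [h4], smul_smul, inv_mul_cancel₀ hc0, one_smul]

omit T in
lemma smul_gl (c : F) (hc : c ≠ 0) {ι : Type} [Fintype ι] [DecidableEq ι] (a : GL ι F) : ∃ a' : GL ι F,
    (a' : Matrix ι ι F) = c • (a : Matrix ι ι F) := by
  refine ⟨⟨c • (a : Matrix ι ι F), c⁻¹ • ((a⁻¹ : GL ι F) : Matrix ι ι F), ?_, ?_⟩, rfl⟩
  · rw [Matrix.smul_mul, Matrix.mul_smul, smul_smul, mul_inv_cancel₀ hc, one_smul, ← Units.val_mul, mul_inv_cancel,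
      Units.val_one]
  · rw [Matrix.smul_mul, Matrix.mul_smul, smul_smul, inv_mul_cancel₀ hc, one_smul, ← Units.val_mul, inv_mul_cancel,
      Units.val_one]

/-- **Lemma U**: normalisation of the elements of `p`-power order of `M ∩ range kr`. -/
lemma unip {p : ℕ} [Fact p.Prime] [CharP F p] [Finite F] {s : β → F} (hs : s ≠ 0)
    (hM : Grp f₁ B f M) {y₁ : GL (Fin 2) F} {y₂ : GL β F} (hy : kr (y₁, y₂) ∈ M) {k : ℕ}
    (hk : kr (y₁, y₂) ^ p ^ k = 1) :
    ∃ (a : GL (Fin 2) F) (b : GL β F), kr (a, b) = kr (y₁, y₂) ∧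
      (∀ u v, f₁ ((a : Matrix _ _ F) *ᵥ u) ((a : Matrix _ _ F) *ᵥ v) = f₁ u v) ∧
      (∀ x y, B ((b : Matrix _ _ F) *ᵥ x) ((b : Matrix _ _ F) *ᵥ y) = B x y) ∧
      (∃ e : Fin 2 → F, e ≠ 0 ∧ ∃ c : F, ∀ u, (a : Matrix _ _ F) *ᵥ u = u + (c * f₁ u e) • e) ∧
      ((b : Matrix β β F) - 1) ^ p ^ k = 0 := by
  classical
  have : Nonempty β := by
    obtain ⟨j, hj⟩ := Function.ne_iff.mp hs
    exact ⟨j⟩
  have h1 : kr (y₁ ^ p ^ k, y₂ ^ p ^ k) = 1 := by rw [← hk, ← map_pow, Prod.pow_mk]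
  obtain ⟨c, hc, hc1, hc2⟩ := kr_eq_one h1 ⟨s, hs⟩
  -- c = l ^ (p ^ k)
  obtain ⟨l, hl⟩ : ∃ l : F, l ^ p ^ k = c := by
    have hinj : Function.Injective (fun x : F => x ^ p ^ k) := by
      intro x y hxy
      have h2 : (x - y) ^ p ^ k = 0 := by
        rw [sub_pow_char_pow, show x ^ p ^ k = y ^ p ^ k from hxy, sub_self]
      exact sub_eq_zero.mp (pow_eq_zero_iff (pow_ne_zero _ (Fact.out : p.Prime).ne_zero) |>.mp h2)
    exact (Finite.injective_iff_surjective.mp hinj) c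
  have hl0 : l ≠ 0 := by
    rintro rfl
    rw [zero_pow (pow_ne_zero _ (Fact.out : p.Prime).ne_zero)] at hl
    exact hc hl.symm
  obtain ⟨a, ha⟩ := smul_gl l⁻¹ (inv_ne_zero hl0) y₁
  obtain ⟨b, hb⟩ := smul_gl l hl0 y₂
  have hab : kr (a, b) = kr (y₁, y₂) := by
    apply Units.ext
    rw [coe_kr, coe_kr]
    show (a : Matrix (Fin 2) (Fin 2) F) ⊗ₖ (b : Matrix β β F) = _
    rw [ha, hb, Matrix.smul_kronecker, Matrix.kronecker_smul, smul_smul, inv_mul_cancel₀ hl0, one_smul]
  have hpa : (a : Matrix (Fin 2) (Fin 2) F) ^ p ^ k = 1 := by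
    rw [ha, smul_pow, inv_pow, hl, ← Units.val_pow_eq_pow_val]
    apply Matrix.ext_of_mulVec_single
    intro i
    rw [Matrix.smul_mulVec, hc1, smul_smul, inv_mul_cancel₀ hc, one_smul, Matrix.one_mulVec]
  have hpb : (b : Matrix β β F) ^ p ^ k = 1 := by
    rw [hb, smul_pow, hl, ← Units.val_pow_eq_pow_val]
    apply Matrix.ext_of_mulVec_single
    intro i
    rw [Matrix.smul_mulVec, hc2, smul_smul, mul_inv_cancel₀ hc, one_smul, Matrix.one_mulVec]
  have hna : ((a : Matrix (Fin 2) (Fin 2) F) - 1) ^ p ^ k = 0 := by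
    rw [sub_pow_char_pow_of_commute p k (Commute.one_right _), hpa, one_pow, sub_self]
  have hnb : ((b : Matrix β β F) - 1) ^ p ^ k = 0 := by
    rw [sub_pow_char_pow_of_commute p k (Commute.one_right _), hpb, one_pow, sub_self]
  obtain ⟨μ, hμ, hmult⟩ := exists_mult T.sym a
  have hμ1 : μ = 1 := by
    have h2 : ∀ n : ℕ, ∀ u v, f₁ (((a : Matrix (Fin 2) (Fin 2) F) ^ n) *ᵥ u)
        (((a : Matrix (Fin 2) (Fin 2) F) ^ n) *ᵥ v) = μ ^ n * f₁ u v := by
      intro n
      induction n with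
      | zero => intro u v; simp
      | succ n ih =>
        intro u v
        rw [pow_succ', ← Matrix.mulVec_mulVec, ← Matrix.mulVec_mulVec, hmult, ih, pow_succ]
        ring
    obtain ⟨x, hx⟩ := (T.sym.nondegenerate (Pi.single 0 1) (by
      intro h; have := congrFun h 0; simp at this)).2
    have h3 := h2 (p ^ k) (Pi.single 0 1) x
    rw [hpa, Matrix.one_mulVec, Matrix.one_mulVec] at h3
    have h4 : μ ^ p ^ k = 1 := by
      have h5 : (μ ^ p ^ k - 1) * f₁ (Pi.single 0 1) x = 0 := by linear_combination -h3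
      exact sub_eq_zero.mp ((mul_eq_zero.mp h5).resolve_right hx)
    have h5 : (μ - 1) ^ p ^ k = 0 := by rw [sub_pow_char_pow, h4, one_pow, sub_self]
    exact sub_eq_zero.mp (pow_eq_zero_iff (pow_ne_zero _ (Fact.out : p.Prime).ne_zero) |>.mp h5)
  rw [hμ1] at hmult
  have hmult' : ∀ u v, f₁ ((a : Matrix _ _ F) *ᵥ u) ((a : Matrix _ _ F) *ᵥ v) = f₁ u v := by
    intro u v; rw [hmult, one_mul]
  refine ⟨a, b, hab, hmult', ?_, ?_, hnb⟩
  · intro x y
    obtain ⟨u, hu⟩ := (T.sym.nondegenerate (Pi.single 0 1) (by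
      intro h; have := congrFun h 0; simp at this)).2
    have h2 := hM.iso _ hy (ten (Pi.single 0 1) x) (ten u y)
    rw [← hab, kr_mulVec_ten, kr_mulVec_ten, T.ten, T.ten] at h2
    have h3 : f₁ (Pi.single 0 1) u * B ((b : Matrix _ _ F) *ᵥ x) ((b : Matrix _ _ F) *ᵥ y) =
        f₁ (Pi.single 0 1) u * B x y := by
      rw [← h2, hmult']
    exact mul_left_cancel₀ hu h3
  · obtain ⟨e, he, hae⟩ := exists_fix_of_nilp _ hna
    obtain ⟨c, hc⟩ := tU_form T hmult' he hae
    exact ⟨e, he, c, hc⟩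

end Cfsg.Agent.H919.Four
end

-- part: H919/FourD
section
/-!
# `Sp_2(q) ⊗ O_n(q)` in `Sp_{2n}(q)`: the TI property of `t ⊗ 1` (helper919)
-/

set_option autoImplicit false
set_option linter.unusedSectionVars false

open Cfsg Cfsg.Geo Matrix
open scoped Kronecker

namespace Cfsg.Agent.H919.Four

open Cfsg.Agent.H929 (QF rB)
open Cfsg.Agent.H872 Cfsg.Agent.H924.Ten

variable {β : Type} [Fintype β] [DecidableEq β] {F : Type*} [Field F]
variable {f₁ : (Fin 2 → F) → (Fin 2 → F) → F} {Q : (β → F) → F} {B : (β → F) → (β → F) → F}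
  {f : (Fin 2 × β → F) → (Fin 2 × β → F) → F}

variable (T : Tens f₁ Q B f) {M : Subgroup (GL (Fin 2 × β) F)} (hM : Grp f₁ B f M)

include T

/-- powers of a transvection of the plane -/
lemma tU_pow {e : Fin 2 → F} {c : F} {a : GL (Fin 2) F}
    (ha : ∀ u, (a : Matrix (Fin 2) (Fin 2) F) *ᵥ u = u + (c * f₁ u e) • e) (n : ℕ) (u : Fin 2 → F) :
    ((a ^ n : GL (Fin 2) F) : Matrix (Fin 2) (Fin 2) F) *ᵥ u = u + ((n : F) * c * f₁ u e) • e := by
  induction n with
  | zero => simp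
  | succ n ih =>
    rw [pow_succ', gl_mul_mulVec, ih, ha, T.sym.bilinear.add_left, T.sym.bilinear.smul_left, T.sym.alternating]
    push_cast
    module

/-- the hypothesis on the second factor: it has no isometry `b ≠ 1` with `(b - 1)² = 0` -/
def NoSq (B : (β → F) → (β → F) → F) : Prop :=
  ∀ b : GL β F, (∀ x y, B ((b : Matrix β β F) *ᵥ x) ((b : Matrix β β F) *ᵥ y) = B x y) →
    (∀ x, (b : Matrix β β F) *ᵥ ((b : Matrix β β F) *ᵥ x) + x = (2 : F) • ((b : Matrix β β F) *ᵥ x)) → b = 1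

/-- **TI_A**: a conjugate of `t ⊗ 1` which is a pure tensor comes from a pure tensor. -/
theorem tiA [Finite F] (hM : Grp f₁ B f M) (hβ : (Fintype.card β : F) ≠ 0) (hβ3 : 3 ≤ Fintype.card β)
    {s : β → F} (hs : s ≠ 0) (hQs : Q s = 0) (hnc : NoC B M s) (hsq : NoSq B)
    {e : Fin 2 → F} (he : e ≠ 0) {c : F} (hc : c ≠ 0) {a : GL (Fin 2) F}
    (ha : ∀ u, (a : Matrix (Fin 2) (Fin 2) F) *ᵥ u = u + (c * f₁ u e) • e)
    {g : GL (Fin 2 × β) F} (hg : g ∈ M)
    (hx : ∃ x : GL (Fin 2) F × GL β F, kr x = g * kr (a, (1 : GL β F)) * g⁻¹) :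
    ∃ x : GL (Fin 2) F × GL β F, kr x = g := by
  classical
  obtain ⟨p, hp⟩ := CharP.exists F
  have hpp : p.Prime := by
    rcases CharP.char_is_prime_or_zero F p with h | h
    · exact h
    · exfalso
      subst h
      have := CharP.charP_to_charZero F
      exact not_finite F
  have : Fact p.Prime := ⟨hpp⟩
  set d := kr (a, (1 : GL β F)) with hd
  have hiso_a : ∀ u v, f₁ ((a : Matrix (Fin 2) (Fin 2) F) *ᵥ u) ((a : Matrix (Fin 2) (Fin 2) F) *ᵥ v) = f₁ u v := by
    intro u v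
    rw [ha, ha]
    simp only [T.sym.bilinear.add_left, T.sym.bilinear.add_right, T.sym.bilinear.smul_left,
      T.sym.bilinear.smul_right, T.sym.alternating, T.sym.skew e v]
    ring
  have hdM : d ∈ M := T.kr_one_mem hM hiso_a
  have hd1 : ∀ v, (d : Matrix (Fin 2 × β) (Fin 2 × β) F) *ᵥ v = v + ten e (c • Lc f₁ e v) := kel_tU T e c ha
  have hdp : d ^ p ^ 1 = 1 := by
    have h1 : a ^ p = 1 := by
      apply Units.ext
      apply Matrix.ext_of_mulVec_single
      intro i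
      rw [tU_pow T ha, CharP.cast_eq_zero F p, Units.val_one, Matrix.one_mulVec]
      simp
    rw [pow_one, hd, ← map_pow, Prod.pow_mk, one_pow, h1]
    exact map_one kr
  obtain ⟨⟨y₁, y₂⟩, hy⟩ := hx
  have hyM : kr (y₁, y₂) ∈ M := by rw [hy]; exact M.mul_mem (M.mul_mem hg hdM) (M.inv_mem hg)
  have hyp : kr (y₁, y₂) ^ p ^ 1 = 1 := by
    rw [hy, conj_pow, hdp, mul_one, mul_inv_cancel]
  obtain ⟨a', b', hab, ha'iso, hb'iso, ⟨e', he', c', ha'⟩, -⟩ := unip T hs hM hyM hyp
  -- `h (g v) = g (d v)`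
  have hconj : ∀ v, (kr (a', b') : Matrix (Fin 2 × β) (Fin 2 × β) F) *ᵥ
      ((g : Matrix (Fin 2 × β) (Fin 2 × β) F) *ᵥ v) = (g : Matrix (Fin 2 × β) (Fin 2 × β) F) *ᵥ
      ((d : Matrix (Fin 2 × β) (Fin 2 × β) F) *ᵥ v) := by
    intro v
    rw [hab, hy, gl_mul_mulVec, gl_mul_mulVec, gl_inv_mulVec]
  have hdd : ∀ v, (d : Matrix (Fin 2 × β) (Fin 2 × β) F) *ᵥ ((d : Matrix (Fin 2 × β) (Fin 2 × β) F) *ᵥ v) + v =
      (2 : F) • ((d : Matrix (Fin 2 × β) (Fin 2 × β) F) *ᵥ v) := by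
    intro v
    rw [hd1, hd1, map_add, L_ten T, T.sym.alternating, zero_smul, add_zero]
    module
  have hhh : ∀ v, (kr (a', b') : Matrix (Fin 2 × β) (Fin 2 × β) F) *ᵥ
      ((kr (a', b') : Matrix (Fin 2 × β) (Fin 2 × β) F) *ᵥ v) + v =
      (2 : F) • ((kr (a', b') : Matrix (Fin 2 × β) (Fin 2 × β) F) *ᵥ v) := by
    intro v
    have h1 : v = (g : Matrix (Fin 2 × β) (Fin 2 × β) F) *ᵥ
        (((g⁻¹ : GL (Fin 2 × β) F) : Matrix (Fin 2 × β) (Fin 2 × β) F) *ᵥ v) := by rw [gl_mulVec_inv]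
    rw [h1, hconj, hconj, ← Matrix.mulVec_add, hdd, Matrix.mulVec_smul]
  have hae' : (a' : Matrix (Fin 2) (Fin 2) F) *ᵥ e' = e' := by
    rw [ha', T.sym.alternating, mul_zero, zero_smul, add_zero]
  have hb1 : b' = 1 := by
    apply hsq b' hb'iso
    intro x
    apply ten_right_injective he'
    have h1 := hhh (ten e' x)
    rw [kr_mulVec_ten, kr_mulVec_ten, hae', hae', ← ten_add_right, ← ten_smul_right] at h1
    exact h1
  subst hb1
  have hKel : Kel f₁ e' (c' • LinearMap.id) (kr (a', (1 : GL β F))) := kel_tU T e' c' ha'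
  -- image of `e ⊗ W`
  obtain ⟨e₁, he₁⟩ := exists_dual T he
  have himg : ∀ w, ∃ w', (g : Matrix (Fin 2 × β) (Fin 2 × β) F) *ᵥ (ten e w) = ten e' w' := by
    intro w
    have h1 := hconj (ten e₁ (c⁻¹ • w))
    rw [hKel, hd1, L_ten T, he₁, one_smul, smul_smul, mul_inv_cancel₀ hc, one_smul, Matrix.mulVec_add] at h1
    exact ⟨_, (add_left_cancel h1).symm⟩
  obtain ⟨a₁, ha₁, ha₁iso⟩ := exists_map T.sym he' he
  obtain ⟨x, hx⟩ := stabE T hM hβ hβ3 hs hQs hnc he (g := kr (a₁, (1 : GL β F)) * g)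
    (M.mul_mem (T.kr_one_mem hM ha₁iso) hg) (by
      intro w
      obtain ⟨w', hw'⟩ := himg w
      refine ⟨w', ?_⟩
      rw [gl_mul_mulVec, hw', kr_mulVec_ten, ha₁, Units.val_one, Matrix.one_mulVec])
  refine ⟨(a₁, (1 : GL β F))⁻¹ * x, ?_⟩
  rw [map_mul, map_inv, hx]
  group

end Cfsg.Agent.H919.Four
end

-- part: H919/TraceUni
section
/-!
# The relative trace of an `H`-equivariant endomorphism of `End V` (helper919)

Let `H, M ≤ GL V`, `Φ₀` an `H ∩ M`-equivariant linear endomorphism of `End V`, `q > 3`. There is an `M`-equivariant `Φ` which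
agrees with `Φ₀` on the centraliser of every `N` with `N² = 0` such that the elements `1 + c N` lie in `H ∩ M` and are TI:
`g (1 + c N) g⁻¹ ∈ H → g ∈ H` for `g ∈ M`, `c ≠ 0`.
-/

set_option autoImplicit false

namespace Cfsg.Agent.H919

variable {ι : Type*} [Fintype ι] [DecidableEq ι] {F : Type*} [Field F]

/-- the element `1 + c N` -/
def uu (N : Matrix ι ι F) (hN : N * N = 0) (c : F) : Matrix.GeneralLinearGroup ι F where
  val := 1 + c • N
  inv := 1 - c • N
  val_inv := by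
    rw [add_mul, one_mul, mul_sub, mul_one, smul_mul_smul_comm, hN, smul_zero]
    abel
  inv_val := by
    rw [sub_mul, one_mul, mul_add, mul_one, smul_mul_smul_comm, hN, smul_zero]
    abel

lemma coe_uu (N : Matrix ι ι F) (hN : N * N = 0) (c : F) : (uu N hN c : Matrix ι ι F) = 1 + c • N := rfl

lemma uu_mul (N : Matrix ι ι F) (hN : N * N = 0) (c d : F) : uu N hN (c + d) = uu N hN c * uu N hN d := by
  apply Units.ext
  rw [Units.val_mul, coe_uu, coe_uu, coe_uu, add_mul, one_mul, mul_add, mul_one, smul_mul_smul_comm, hN, smul_zero,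
    add_smul]
  abel

lemma uu_zero (N : Matrix ι ι F) (hN : N * N = 0) : uu N hN 0 = 1 := by
  apply Units.ext
  rw [coe_uu, zero_smul, add_zero, Units.val_one]

/-- the trace of `1 + F N` on `End V` vanishes for `q > 3` -/
lemma sum_uu [Fintype F] (hq : 3 < Fintype.card F) (N y : Matrix ι ι F) :
    ∑ c : F, (1 + c • N) * y * (1 - c • N) = 0 := by
  have h0 : ∑ c : F, c ^ 0 = 0 := FiniteField.sum_pow_lt_card_sub_one F 0 (by omega)
  have h1 : ∑ c : F, c ^ 1 = 0 := FiniteField.sum_pow_lt_card_sub_one F 1 (by omega)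
  have h2 : ∑ c : F, c ^ 2 = 0 := FiniteField.sum_pow_lt_card_sub_one F 2 (by omega)
  have h : ∀ c : F, (1 + c • N) * y * (1 - c • N) = c ^ 0 • y + c ^ 1 • (N * y - y * N) - c ^ 2 • (N * y * N) := by
    intro c
    rw [pow_zero, one_smul, pow_one, sq, add_mul, one_mul, mul_sub, mul_one, add_mul, smul_mul_assoc, mul_smul_comm,
      smul_mul_smul_comm, smul_sub]
    abel
  rw [Finset.sum_congr rfl fun c _ => h c, Finset.sum_sub_distrib, Finset.sum_add_distrib, ← Finset.sum_smul,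
    ← Finset.sum_smul, ← Finset.sum_smul, h0, h1, h2]
  simp

/-- **The trace lemma** for `End V`. -/
theorem trace_fix [Fintype F] (hq : 3 < Fintype.card F) (M H : Subgroup (Matrix.GeneralLinearGroup ι F))
    (Φ₀ : Matrix ι ι F →ₗ[F] Matrix ι ι F)
    (h0 : ∀ h ∈ H, h ∈ M → ∀ z, Φ₀ ((h : Matrix ι ι F) * z * ((h⁻¹ : Matrix.GeneralLinearGroup ι F) : Matrix ι ι F)) =
      (h : Matrix ι ι F) * Φ₀ z * ((h⁻¹ : Matrix.GeneralLinearGroup ι F) : Matrix ι ι F)) :
    ∃ Φ : Matrix ι ι F →ₗ[F] Matrix ι ι F,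
      (∀ g ∈ M, ∀ z, Φ ((g : Matrix ι ι F) * z * ((g⁻¹ : Matrix.GeneralLinearGroup ι F) : Matrix ι ι F)) =
        (g : Matrix ι ι F) * Φ z * ((g⁻¹ : Matrix.GeneralLinearGroup ι F) : Matrix ι ι F)) ∧
      ∀ (N : Matrix ι ι F) (hN : N * N = 0), N ≠ 0 → (∀ c, uu N hN c ∈ M) → (∀ c, uu N hN c ∈ H) →
        (∀ c, c ≠ 0 → ∀ g ∈ M, g * uu N hN c * g⁻¹ ∈ H → g ∈ H) → ∀ z, N * z = z * N → Φ z = Φ₀ z := by
  classical
  let ρ : M →* Module.End F (Matrix ι ι F) :=
    { toFun := fun g =>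
        { toFun := fun z => ((g : Matrix.GeneralLinearGroup ι F) : Matrix ι ι F) * z *
            (((g : Matrix.GeneralLinearGroup ι F)⁻¹ : Matrix.GeneralLinearGroup ι F) : Matrix ι ι F)
          map_add' := fun x y => by rw [mul_add, add_mul]
          map_smul' := fun c x => by rw [mul_smul_comm, smul_mul_assoc]; rfl }
      map_one' := by
        apply LinearMap.ext
        intro z
        simp only [_root_.OneMemClass.coe_one, _root_.Units.val_one, _root_.one_mul, _root_.inv_one, _root_.mul_one, _root_.LinearMap.coe_mk, _root_.AddHom.coe_mk, _root_.Module.End.one_apply]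
      map_mul' := fun g g' => by
        apply LinearMap.ext
        intro z
        show ((g * g' : Matrix.GeneralLinearGroup ι F) : Matrix ι ι F) * z *
          (((g * g' : Matrix.GeneralLinearGroup ι F)⁻¹ : Matrix.GeneralLinearGroup ι F) : Matrix ι ι F) =
          ((g : Matrix.GeneralLinearGroup ι F) : Matrix ι ι F) *
            (((g' : Matrix.GeneralLinearGroup ι F) : Matrix ι ι F) * z *
            (((g' : Matrix.GeneralLinearGroup ι F)⁻¹ : Matrix.GeneralLinearGroup ι F) : Matrix ι ι F)) *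
            (((g : Matrix.GeneralLinearGroup ι F)⁻¹ : Matrix.GeneralLinearGroup ι F) : Matrix ι ι F)
        rw [mul_inv_rev, Units.val_mul, Units.val_mul]
        simp only [mul_assoc] }
  have hρ : ∀ (g : M) z, ρ g z = ((g : Matrix.GeneralLinearGroup ι F) : Matrix ι ι F) * z *
            (((g : Matrix.GeneralLinearGroup ι F)⁻¹ : Matrix.GeneralLinearGroup ι F) : Matrix ι ι F) := fun g z => rfl
  obtain ⟨Φ, h1, h2⟩ := Cfsg.Agent.H189.TraceFix.exists_trace ρ (H.subgroupOf M) Φ₀ (by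
    intro h hh
    apply LinearMap.ext
    intro z
    show ρ h (Φ₀ z) = Φ₀ (ρ h z)
    rw [hρ, hρ, h0 _ (Subgroup.mem_subgroupOf.mp hh) h.2])
  refine ⟨Φ, ?_, ?_⟩
  · intro g hg z
    have := congrArg (fun L : Module.End F (Matrix ι ι F) => L z) (h1 ⟨g, hg⟩)
    exact this.symm
  · intro N hN hN0 hNM hNH hTI z hz
    let φ : Multiplicative F →* M :=
      { toFun := fun c => ⟨uu N hN (Multiplicative.toAdd c), hNM _⟩
        map_one' := Subtype.ext (uu_zero N hN)
        map_mul' := fun c d => Subtype.ext (uu_mul N hN _ _) }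
    have hφ : ∀ c, ((φ c : M) : Matrix.GeneralLinearGroup ι F) = uu N hN (Multiplicative.toAdd c) := fun c => rfl
    have hinj : Function.Injective φ := by
      intro c d hcd
      have h3 : uu N hN (Multiplicative.toAdd c) = uu N hN (Multiplicative.toAdd d) := congrArg Subtype.val hcd
      have h4 := congrArg (fun x : Matrix.GeneralLinearGroup ι F => (x : Matrix ι ι F)) h3
      simp only [coe_uu] at h4
      have h5 := add_left_cancel h4
      exact Multiplicative.toAdd.injective (smul_left_injective F hN0 h5)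
    have : Fintype φ.range := Fintype.ofFinite _
    obtain ⟨y, hy⟩ := h2 φ.range (by
      rintro _ ⟨c, rfl⟩
      exact Subgroup.mem_subgroupOf.mpr (hNH _)) (by
      rintro g hg _ ⟨c, rfl⟩ hc
      by_cases hc0 : Multiplicative.toAdd c = 0
      · have : c = 1 := hc0
        rw [this, map_one]
      · exfalso
        apply hg
        have h3 := hTI _ hc0 ((g : Matrix.GeneralLinearGroup ι F)⁻¹) (M.inv_mem g.2) (by
          have h4 := Subgroup.mem_subgroupOf.mp hc
          rw [inv_inv]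
          exact h4)
        rw [Subgroup.mem_subgroupOf]
        simpa using H.inv_mem h3) z (by
      rintro _ ⟨c, rfl⟩
      rw [hρ, hφ]
      have h5 : (uu N hN (Multiplicative.toAdd c) : Matrix ι ι F) * z = z * (uu N hN (Multiplicative.toAdd c) : Matrix ι ι F) := by
        rw [coe_uu, add_mul, mul_add, one_mul, mul_one, smul_mul_assoc, mul_smul_comm, hz]
      rw [h5, mul_assoc, Units.mul_inv, mul_one])
    rw [hy]
    have h3 : ∑ c : φ.range, ρ c y = ∑ c : Multiplicative F, ρ (φ c) y := by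
      rw [← Equiv.sum_comp (MonoidHom.ofInjective hinj).toEquiv]
      rfl
    have h4 : ∑ c : Multiplicative F, ρ (φ c) y = ∑ c : F, (1 + c • N) * y * (1 - c • N) := by
      rw [← Equiv.sum_comp (Multiplicative.ofAdd : F ≃ Multiplicative F)]
      rfl
    rw [h3, h4, sum_uu hq, add_zero]

end Cfsg.Agent.H919
end

-- part: H919/FourE
section
/-!
# `Sp_2(q) ⊗ O_n(q)` in `Sp_{2n}(q)`: the trace argument, `q ≥ 5` (helper919)
-/

set_option autoImplicit false
set_option linter.unusedSectionVars false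

open Cfsg Cfsg.Geo Matrix
open scoped Kronecker

namespace Cfsg.Agent.H919.Four

open Cfsg.Agent.H929 (QF rB)
open Cfsg.Agent.H872 Cfsg.Agent.H924.Ten

section Tr

variable {α β : Type} [Fintype α] [DecidableEq α] [Fintype β] [DecidableEq β] {F : Type*} [Field F]

/-- two linear maps which agree on pure matrices are equal -/
lemma kron_ext {Y : Type*} [AddCommMonoid Y] [Module F Y] {L L' : Matrix (α × β) (α × β) F →ₗ[F] Y}
    (h : ∀ (x : Matrix α α F) (y : Matrix β β F), L (x ⊗ₖ y) = L' (x ⊗ₖ y)) : L = L' := by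
  apply Matrix.ext_linearMap
  rintro ⟨i, j⟩ ⟨i', j'⟩
  apply LinearMap.ext_ring
  have h1 := h (Matrix.single i i' 1) (Matrix.single j j' 1)
  rw [Matrix.single_kronecker_single, mul_one] at h1
  exact h1

/-- the partial trace over the second factor -/
def ptr : Matrix (α × β) (α × β) F →ₗ[F] Matrix α α F where
  toFun z := Matrix.of fun i i' => ∑ j, z (i, j) (i', j)
  map_add' x y := by
    ext i i'
    simp only [Finset.sum_add_distrib, _root_.Matrix.add_apply, _root_.Finset.sum_add_distrib, _root_.Matrix.of_apply]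
  map_smul' c x := by
    ext i i'
    simp only [Finset.mul_sum, _root_.Matrix.smul_apply, _root_.smul_eq_mul, _root_.Matrix.of_apply, _root_.RingHom.id_apply, _root_.Finset.mul_sum]

lemma ptr_kron (x : Matrix α α F) (y : Matrix β β F) : ptr (x ⊗ₖ y) = Matrix.trace y • x := by
  ext i i'
  simp only [ptr, LinearMap.coe_mk, AddHom.coe_mk, Matrix.of_apply, Matrix.kroneckerMap_apply, Matrix.smul_apply,
    smul_eq_mul, Matrix.trace, Matrix.diag_apply, Finset.sum_mul]
  exact Finset.sum_congr rfl fun j _ => mul_comm _ _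

/-- `z ↦ tr_W(z) ⊗ 1` -/
def phi0 : Matrix (α × β) (α × β) F →ₗ[F] Matrix (α × β) (α × β) F where
  toFun z := ptr z ⊗ₖ (1 : Matrix β β F)
  map_add' x y := by rw [map_add, Matrix.add_kronecker]
  map_smul' c x := by rw [map_smul, Matrix.smul_kronecker]; rfl

lemma phi0_apply (z : Matrix (α × β) (α × β) F) : phi0 z = ptr z ⊗ₖ (1 : Matrix β β F) := rfl

lemma phi0_kron (x : Matrix α α F) (y : Matrix β β F) : phi0 (x ⊗ₖ y) = Matrix.trace y • (x ⊗ₖ (1 : Matrix β β F)) := by
  rw [phi0_apply, ptr_kron, Matrix.smul_kronecker]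

lemma phi0_conj (a : GL α F) (b : GL β F) (z : Matrix (α × β) (α × β) F) :
    phi0 ((kr (a, b) : Matrix (α × β) (α × β) F) * z * (((kr (a, b))⁻¹ : GL (α × β) F) : Matrix (α × β) (α × β) F)) =
      (kr (a, b) : Matrix (α × β) (α × β) F) * phi0 z * (((kr (a, b))⁻¹ : GL (α × β) F) : Matrix (α × β) (α × β) F) := by
  let C : Matrix (α × β) (α × β) F →ₗ[F] Matrix (α × β) (α × β) F :=
    { toFun := fun z => (kr (a, b) : Matrix (α × β) (α × β) F) * z *
        (((kr (a, b))⁻¹ : GL (α × β) F) : Matrix (α × β) (α × β) F)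
      map_add' := fun x y => by rw [mul_add, add_mul]
      map_smul' := fun c x => by rw [mul_smul_comm, smul_mul_assoc]; rfl }
  have hinv : (((kr (a, b))⁻¹ : GL (α × β) F) : Matrix (α × β) (α × β) F) =
      ((a⁻¹ : GL α F) : Matrix α α F) ⊗ₖ ((b⁻¹ : GL β F) : Matrix β β F) := by
    rw [← map_inv, coe_kr]
    rfl
  have hC : ∀ (x : Matrix α α F) (y : Matrix β β F), C (x ⊗ₖ y) =
      ((a : Matrix α α F) * x * ((a⁻¹ : GL α F) : Matrix α α F)) ⊗ₖ
        ((b : Matrix β β F) * y * ((b⁻¹ : GL β F) : Matrix β β F)) := by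
    intro x y
    show (kr (a, b) : Matrix (α × β) (α × β) F) * (x ⊗ₖ y) *
      (((kr (a, b))⁻¹ : GL (α × β) F) : Matrix (α × β) (α × β) F) = _
    rw [hinv, coe_kr]
    show (a : Matrix α α F) ⊗ₖ (b : Matrix β β F) * (x ⊗ₖ y) * _ = _
    rw [← Matrix.mul_kronecker_mul, ← Matrix.mul_kronecker_mul]
  have key : phi0 ∘ₗ C = C ∘ₗ phi0 := by
    apply kron_ext
    intro x y
    rw [LinearMap.comp_apply, LinearMap.comp_apply, hC, phi0_kron, phi0_kron, map_smul, hC, mul_one, Units.mul_inv,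
      Matrix.trace_mul_comm, ← mul_assoc, Units.inv_mul, one_mul]
  exact congrArg (fun L : Matrix (α × β) (α × β) F →ₗ[F] Matrix (α × β) (α × β) F => L z) key

lemma kron_one_inj [Nonempty β] {x y : Matrix α α F} (h : x ⊗ₖ (1 : Matrix β β F) = y ⊗ₖ (1 : Matrix β β F)) : x = y := by
  obtain ⟨j⟩ := ‹Nonempty β›
  ext i i'
  have h1 := congrFun (congrFun h (i, j)) (i', j)
  simpa using h1

end Tr

variable {β : Type} [Fintype β] [DecidableEq β] {F : Type*} [Field F]
variable {f₁ : (Fin 2 → F) → (Fin 2 → F) → F} {Q : (β → F) → F} {B : (β → F) → (β → F) → F}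
  {f : (Fin 2 × β → F) → (Fin 2 × β → F) → F}

/-- the matrix of `u ↦ f₁(u, e) e` -/
def Nm (f₁ : (Fin 2 → F) → (Fin 2 → F) → F) (e : Fin 2 → F) : Matrix (Fin 2) (Fin 2) F :=
  Matrix.vecMulVec e (phi f₁ e)

variable (T : Tens f₁ Q B f) {M : Subgroup (GL (Fin 2 × β) F)} (hM : Grp f₁ B f M)

include T

lemma Nm_mulVec (e u : Fin 2 → F) : Nm f₁ e *ᵥ u = f₁ u e • e := by
  rw [Nm, Matrix.vecMulVec_mulVec, phi_dot T.sym]
  funext i
  simp [mul_comm]

lemma Nm_sq (e : Fin 2 → F) : Nm f₁ e * Nm f₁ e = 0 := by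
  rw [Nm, Matrix.vecMulVec_mul_vecMulVec, phi_dot T.sym, T.sym.alternating, zero_smul, Matrix.vecMulVec_zero]

lemma NN_sq (e : Fin 2 → F) : (Nm f₁ e ⊗ₖ (1 : Matrix β β F)) * (Nm f₁ e ⊗ₖ (1 : Matrix β β F)) = 0 := by
  rw [← Matrix.mul_kronecker_mul, Nm_sq T, Matrix.zero_kronecker]

/-- `1 + c N_e ⊗ 1` -/
lemma uu_eq_kr (e : Fin 2 → F) (c : F) {a : GL (Fin 2) F}
    (ha : ∀ u, (a : Matrix (Fin 2) (Fin 2) F) *ᵥ u = u + (c * f₁ u e) • e) :
    uu (Nm f₁ e ⊗ₖ (1 : Matrix β β F)) (NN_sq T e) c = kr (a, (1 : GL β F)) := by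
  apply Units.ext
  rw [coe_uu, coe_kr]
  show _ = (a : Matrix (Fin 2) (Fin 2) F) ⊗ₖ (1 : Matrix β β F)
  have h1 : (a : Matrix (Fin 2) (Fin 2) F) = 1 + c • Nm f₁ e := by
    apply Matrix.ext_of_mulVec_single
    intro i
    rw [ha, Matrix.add_mulVec, Matrix.one_mulVec, Matrix.smul_mulVec, Nm_mulVec T, smul_smul]
  rw [h1, Matrix.add_kronecker, Matrix.smul_kronecker, Matrix.one_kronecker_one]

/-- the plane has enough transvections -/
lemma span_Nm (x : Matrix (Fin 2) (Fin 2) F) : ∃ c₀ c₁ c₂ c₃ : F, x = c₀ • (1 : Matrix (Fin 2) (Fin 2) F) +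
    c₁ • Nm f₁ (Pi.single 0 1) + c₂ • Nm f₁ (Pi.single 1 1) + c₃ • Nm f₁ (Pi.single 0 1 + Pi.single 1 1) := by
  set k := f₁ (Pi.single 0 1) (Pi.single 1 1) with hk
  have hexp : ∀ u : Fin 2 → F, u = u 0 • Pi.single 0 1 + u 1 • Pi.single 1 1 := by
    intro u
    funext i
    (revert i; simp only [_root_.Fin.forall_fin_succ, Fin.isValue, _root_.Pi.add_apply, _root_.Pi.smul_apply, _root_.smul_eq_mul, _root_.Pi.single_eq_same, _root_.mul_one, _root_.ne_eq, _root_.zero_ne_one, _root_.not_false_eq_true, _root_.Pi.single_eq_of_ne, _root_.MulZeroClass.mul_zero, _root_.add_zero, _root_.Fin.succ_ne_zero, _root_.zero_add, _root_.Fin.succ_zero_eq_one, _root_.IsEmpty.forall_iff, _root_.and_self])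
  have hk' : f₁ (Pi.single 1 1) (Pi.single 0 1) = -k := T.sym.skew _ _
  have hk0 : k ≠ 0 := by
    intro h0
    obtain ⟨x, hx⟩ := (T.sym.nondegenerate (Pi.single 0 1) (by
      intro h; have := congrFun h 0; simp at this)).2
    apply hx
    rw [hexp x, T.sym.bilinear.add_right, T.sym.bilinear.smul_right, T.sym.bilinear.smul_right,
      T.sym.alternating, ← hk, h0]
    ring
  have h2 := T.two
  refine ⟨(x 0 0 + x 1 1) / 2, -(x 0 1 / k + (x 0 0 - x 1 1) / (2 * k)), x 1 0 / k - (x 0 0 - x 1 1) / (2 * k),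
    (x 0 0 - x 1 1) / (2 * k), ?_⟩
  ext i j
  (revert i j; simp only [Nm, Matrix.vecMulVec_apply, phi, T.sym.bilinear.add_right, T.sym.alternating, ← hk, hk', _root_.Fin.forall_fin_succ, Fin.isValue, _root_.neg_add_rev, _root_.Matrix.add_apply, _root_.Matrix.smul_apply, _root_.smul_eq_mul, _root_.Pi.add_apply, _root_.MulZeroClass.mul_zero, _root_.add_zero, _root_.zero_add, _root_.Fin.succ_zero_eq_one, _root_.mul_neg, _root_.IsEmpty.forall_iff, _root_.and_true, _root_.Matrix.one_apply_eq, _root_.mul_one, _root_.ne_eq, _root_.zero_ne_one, _root_.not_false_eq_true, _root_.Pi.single_eq_of_ne, _root_.MulZeroClass.zero_mul, _root_.Pi.single_eq_same, _root_.one_mul, Nat.reduceAdd, _root_.Matrix.one_apply_ne, _root_.Fin.succ_ne_zero, _root_.neg_zero]) <;> (repeat' with_reducible apply And.intro) <;>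
  field_simp <;> ring

/-- **Main result for `q ≥ 5`**: an overgroup of `Sp_2 ⊗ O(W)` without central elements is a group of pure tensors. -/
theorem main5 [Fintype F] (hq : 3 < Fintype.card F) (hM : Grp f₁ B f M) (hβ : (Fintype.card β : F) ≠ 0)
    (hβ3 : 3 ≤ Fintype.card β) {s : β → F} (hs : s ≠ 0) (hQs : Q s = 0) (hnc : NoC B M s) (hsq : NoSq B)
    {g : GL (Fin 2 × β) F} (hg : g ∈ M) : ∃ x : GL (Fin 2) F × GL β F, kr x = g := by
  classical
  have : Nonempty β := by
    obtain ⟨j, hj⟩ := Function.ne_iff.mp hs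
    exact ⟨j⟩
  set H : Subgroup (GL (Fin 2 × β) F) := (kr (α := Fin 2) (β := β) (F := F)).range with hH
  obtain ⟨Φ, h1, h2⟩ := trace_fix hq M H (phi0 (α := Fin 2) (β := β) (F := F)) (by
    rintro _ ⟨⟨a, b⟩, rfl⟩ _ z
    exact phi0_conj a b z)
  have key : ∀ e : Fin 2 → F, e ≠ 0 → ∀ z, (Nm f₁ e ⊗ₖ (1 : Matrix β β F)) * z = z * (Nm f₁ e ⊗ₖ (1 : Matrix β β F)) →
      Φ z = phi0 z := by
    intro e he z hz
    refine h2 (Nm f₁ e ⊗ₖ (1 : Matrix β β F)) (NN_sq T e) ?_ ?_ ?_ ?_ z hz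
    · intro h0
      obtain ⟨e₁, he₁⟩ := exists_dual T he
      have h3 : Nm f₁ e = 0 := kron_one_inj (β := β) (by rw [h0, Matrix.zero_kronecker])
      have h4 := Nm_mulVec T e e₁
      rw [h3, Matrix.zero_mulVec, he₁, one_smul] at h4
      exact he h4.symm
    · intro c
      obtain ⟨a, ha, haM, -⟩ := exists_A T hM e c
      rw [uu_eq_kr T e c ha]
      exact haM
    · intro c
      obtain ⟨a, ha, haM, -⟩ := exists_A T hM e c
      rw [uu_eq_kr T e c ha]
      exact ⟨_, rfl⟩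
    · intro c hc g hg hx
      obtain ⟨a, ha, haM, -⟩ := exists_A T hM e c
      rw [uu_eq_kr T e c ha] at hx
      exact tiA T hM hβ hβ3 hs hQs hnc hsq he hc ha hg hx
  have hΦ : Φ = phi0 := by
    apply kron_ext
    intro x y
    obtain ⟨c₀, c₁, c₂, c₃, hx⟩ := span_Nm T x
    have hn : ∀ e : Fin 2 → F, e ≠ 0 → Φ (Nm f₁ e ⊗ₖ y) = phi0 (Nm f₁ e ⊗ₖ y) := by
      intro e he
      apply key e he
      rw [← Matrix.mul_kronecker_mul, ← Matrix.mul_kronecker_mul, Nm_sq T, Matrix.zero_kronecker, Matrix.zero_kronecker]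
    have h0 : (Pi.single 0 1 : Fin 2 → F) ≠ 0 := by intro h; have := congrFun h 0; simp at this
    have h1' : (Pi.single 1 1 : Fin 2 → F) ≠ 0 := by intro h; have := congrFun h 1; simp at this
    have h01 : (Pi.single 0 1 + Pi.single 1 1 : Fin 2 → F) ≠ 0 := by intro h; have := congrFun h 0; simp at this
    have h3 : Φ ((1 : Matrix (Fin 2) (Fin 2) F) ⊗ₖ y) = phi0 ((1 : Matrix (Fin 2) (Fin 2) F) ⊗ₖ y) := by
      apply key _ h0
      rw [← Matrix.mul_kronecker_mul, ← Matrix.mul_kronecker_mul, one_mul, mul_one, one_mul, mul_one]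
    rw [hx]
    simp only [Matrix.add_kronecker, Matrix.smul_kronecker, map_add, map_smul, hn _ h0, hn _ h1', hn _ h01, h3]
  -- the conjugate of `N_e ⊗ 1`
  have he : (Pi.single 0 1 : Fin 2 → F) ≠ 0 := by intro h; have := congrFun h 0; simp at this
  set e : Fin 2 → F := Pi.single 0 1 with hedef
  set N := Nm f₁ e ⊗ₖ (1 : Matrix β β F) with hN
  have h3 : phi0 N = (Fintype.card β : F) • N := by
    rw [hN, phi0_kron, Matrix.trace_one]
  obtain ⟨Y, hY⟩ : ∃ Y : Matrix (Fin 2) (Fin 2) F,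
      (g : Matrix (Fin 2 × β) (Fin 2 × β) F) * N * ((g⁻¹ : GL (Fin 2 × β) F) : Matrix (Fin 2 × β) (Fin 2 × β) F) =
        Y ⊗ₖ (1 : Matrix β β F) := by
    have h4 := h1 g hg N
    rw [hΦ, h3, mul_smul_comm, smul_mul_assoc, phi0_apply] at h4
    refine ⟨(Fintype.card β : F)⁻¹ • ptr ((g : Matrix (Fin 2 × β) (Fin 2 × β) F) * N *
      ((g⁻¹ : GL (Fin 2 × β) F) : Matrix (Fin 2 × β) (Fin 2 × β) F)), ?_⟩
    rw [Matrix.smul_kronecker, h4, smul_smul, inv_mul_cancel₀ hβ, one_smul]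
  have hNN : N * N = 0 := NN_sq T e
  have hYY : Y * Y = 0 := by
    apply kron_one_inj (β := β)
    rw [Matrix.zero_kronecker]
    have h5 : (Y ⊗ₖ (1 : Matrix β β F)) * (Y ⊗ₖ (1 : Matrix β β F)) = 0 := by
      rw [← hY]
      calc _ = (g : Matrix (Fin 2 × β) (Fin 2 × β) F) * (N * ((((g⁻¹ : GL (Fin 2 × β) F) : Matrix (Fin 2 × β) (Fin 2 × β) F) *
            (g : Matrix (Fin 2 × β) (Fin 2 × β) F)) * N)) * ((g⁻¹ : GL (Fin 2 × β) F) : Matrix (Fin 2 × β) (Fin 2 × β) F) := by
            simp only [mul_assoc]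
        _ = 0 := by rw [Units.inv_mul, one_mul, hNN, mul_zero, zero_mul]
    rw [← Matrix.mul_kronecker_mul, mul_one] at h5
    exact h5
  obtain ⟨a, ha, haM, -⟩ := exists_A T hM e 1
  refine tiA T hM hβ hβ3 hs hQs hnc hsq he one_ne_zero ha hg ⟨(uu Y hYY 1, 1), ?_⟩
  rw [← uu_eq_kr T e 1 ha]
  apply Units.ext
  rw [Units.val_mul, Units.val_mul, coe_uu, one_smul, mul_add, mul_one, add_mul, Units.mul_inv, ← hN, hY, coe_kr]
  show (uu Y hYY 1 : Matrix (Fin 2) (Fin 2) F) ⊗ₖ (1 : Matrix β β F) = _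
  rw [coe_uu, one_smul, Matrix.add_kronecker, Matrix.one_kronecker_one]

end Cfsg.Agent.H919.Four
end

-- part: H919/FourF
section
/-!
# `Sp_2(q) ⊗ O_n(q)` in `Sp_{2n}(q)`: the dichotomy for `q ≥ 5`, all `n ≥ 3` (helper919)
-/

set_option autoImplicit false
set_option linter.unusedSectionVars false

open Cfsg Cfsg.Geo Matrix
open scoped Kronecker

namespace Cfsg.Agent.H919.Four

open Cfsg.Agent.H929 (QF rB)
open Cfsg.Agent.H872 Cfsg.Agent.H924.Ten

variable {β : Type} [Fintype β] [DecidableEq β] {F : Type*} [Field F]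
variable {f₁ : (Fin 2 → F) → (Fin 2 → F) → F} {Q : (β → F) → F} {B : (β → F) → (β → F) → F}
  {f : (Fin 2 × β → F) → (Fin 2 × β → F) → F}

variable (T : Tens f₁ Q B f) {M : Subgroup (GL (Fin 2 × β) F)} (hM : Grp f₁ B f M)

include T

/-- a nontrivial element of `M` fixing `P_s^⊥` pointwise gives all transvections. -/
theorem transvections [Finite F] (hM : Grp f₁ B f M) {s : β → F} (hs : s ≠ 0)
    (hQs : Q s = 0) {g : GL (Fin 2 × β) F} (hg : g ∈ M) (hg1 : g ≠ 1)
    (hfix : ∀ v, R B s v = 0 → (g : Matrix (Fin 2 × β) (Fin 2 × β) F) *ᵥ v = v)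
    (c : F) (u : Fin 2 → F) (s' : β → F) (hs' : Q s' = 0) :
    ∃ g' ∈ M, ∀ v, (g' : Matrix (Fin 2 × β) (Fin 2 × β) F) *ᵥ v =
      v + (c * f v (ten u s')) • ten u s' := by
  by_cases hs'0 : s' = 0
  · refine ⟨1, M.one_mem, fun v => ?_⟩
    rw [hs'0, ten_zero_right, smul_zero, add_zero, Units.val_one, Matrix.one_mulVec]
  obtain ⟨ξ, hξ, hz⟩ := T.exists_zel hs hQs (hM.iso g hg) hfix
  have hξ0 : ξ ≠ 0 := by
    rintro rfl
    apply hg1
    apply gl_ext_ten
    intro u w
    rw [hz, LinearMap.zero_apply, ten_zero_left, add_zero, Units.val_one, Matrix.one_mulVec]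
  obtain ⟨g₁, hg₁, hz₁⟩ := T.zel_tl hM hQs hg hξ hξ0 hz c u
  obtain ⟨b, hb, hbs⟩ := exists_iso_map T hs hs'0 (by rw [hQs, hs'])
  have hk := T.one_kr_mem hM (T.B_iso hb)
  set k := kr ((1 : GL (Fin 2) F), b) with hkdef
  refine ⟨k * g₁ * k⁻¹, M.mul_mem (M.mul_mem hk hg₁) (M.inv_mem hk), ?_⟩
  intro v
  set w := ((k⁻¹ : GL (Fin 2 × β) F) : Matrix (Fin 2 × β) (Fin 2 × β) F) *ᵥ v with hw
  have hv : v = (k : Matrix (Fin 2 × β) (Fin 2 × β) F) *ᵥ w := by
    rw [hw, Matrix.mulVec_mulVec, ← Units.val_mul, mul_inv_cancel, Units.val_one, Matrix.one_mulVec]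
  have hkt : (k : Matrix (Fin 2 × β) (Fin 2 × β) F) *ᵥ ten u s = ten u s' := by
    rw [hkdef, kr_mulVec_ten, hbs, Units.val_one, Matrix.one_mulVec]
  rw [Units.val_mul, Units.val_mul, ← Matrix.mulVec_mulVec, ← Matrix.mulVec_mulVec, ← hw, hz₁ w, Matrix.mulVec_add,
    ← hv, tl_apply, ten_smul_left, Matrix.mulVec_smul, hkt, ← T.form_R]
  have h8 : f w (ten u s) = f v (ten u s') := by
    rw [hv, ← hkt, hM.iso k hk]
  rw [h8]

/-- the conclusion "`M` contains all transvections with pure singular vectors, or `M` consists of pure tensors" -/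
def Dich (Q : (β → F) → F) (f : (Fin 2 × β → F) → (Fin 2 × β → F) → F) (M : Subgroup (GL (Fin 2 × β) F)) : Prop :=
  (∀ (c : F) (u : Fin 2 → F) (s' : β → F), Q s' = 0 →
      ∃ g' ∈ M, ∀ v, (g' : Matrix (Fin 2 × β) (Fin 2 × β) F) *ᵥ v = v + (c * f v (ten u s')) • ten u s') ∨
    (∀ g ∈ M, ∃ x : GL (Fin 2) F × GL β F, kr x = g)

/-- reduction of the dichotomy to the case without central elements -/
theorem dich_of [Finite F] (hM : Grp f₁ B f M) (h : (∀ s, s ≠ 0 → Q s = 0 → NoC B M s) →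
    ∀ g ∈ M, ∃ x : GL (Fin 2) F × GL β F, kr x = g) : Dich Q f M := by
  by_cases hnc : ∀ s, s ≠ 0 → Q s = 0 → NoC B M s
  · exact Or.inr (h hnc)
  · left
    push Not at hnc
    obtain ⟨s, hs, hQs, hn⟩ := hnc
    unfold NoC at hn
    push Not at hn
    obtain ⟨g, hg, hfix, hg1⟩ := hn
    exact fun c u s' hs' => transvections T hM hs hQs hg hg1 hfix c u s' hs'

/-- a singular vector -/
lemma exists_sing [Finite F] (hβ3 : 3 ≤ Fintype.card β) : ∃ s : β → F, s ≠ 0 ∧ Q s = 0 := by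
  obtain ⟨s, -, hs, hQs⟩ := T.qf.exists_singular T.two ⊤ (fun x _ hx => by
    obtain ⟨y, hy⟩ := T.nd x hx; exact ⟨y, trivial, hy⟩) (by
    rw [finrank_top, Module.finrank_fintype_fun_eq_card]; exact hβ3)
  exact ⟨s, hs, hQs⟩

/-- **The dichotomy** for `q ≥ 5`. -/
theorem dich5 [Fintype F] (hq : 3 < Fintype.card F) (hM : Grp f₁ B f M) (hβ : (Fintype.card β : F) ≠ 0)
    (hβ3 : 3 ≤ Fintype.card β) (hsq : NoSq B) : Dich Q f M := by
  apply dich_of T hM
  intro hnc g hg
  obtain ⟨s, hs, hQs⟩ := exists_sing T hβ3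
  exact main5 T hq hM hβ hβ3 hs hQs (hnc s hs hQs) hsq hg

/-- A space whose singular vectors are pairwise nonorthogonal has no square-zero unipotent isometries. -/
lemma noSq_of_min (hmin : ∀ x y : β → F, x ≠ 0 → Q x = 0 → Q y = 0 → B x y = 0 → ∃ c : F, y = c • x) : NoSq B := by
  intro b hb hsq
  -- `n = b - 1` is skew with square zero
  set n : (β → F) → (β → F) := fun x => (b : Matrix β β F) *ᵥ x - x with hn
  have hnn : ∀ x, (b : Matrix β β F) *ᵥ n x = n x := by
    intro x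
    have h1 := hsq x
    simp only [hn]
    rw [Matrix.mulVec_sub]
    rw [two_smul] at h1
    have h2 : (b : Matrix β β F) *ᵥ ((b : Matrix β β F) *ᵥ x) = (b : Matrix β β F) *ᵥ x + (b : Matrix β β F) *ᵥ x - x :=
      eq_sub_of_add_eq h1
    rw [h2]
    abel
  have hbx : ∀ x, (b : Matrix β β F) *ᵥ x = n x + x := fun x => by simp only [hn]; abel
  -- `B (n x) (n y) = 0` and `B (n x) y = - B x (n y)`
  have h1 : ∀ x y, B (n x) y + B x (n y) + B (n x) (n y) = 0 := by
    intro x y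
    have h2 := hb x y
    rw [hbx, hbx, T.qf.add_left, T.qf.add_right, T.qf.add_right] at h2
    linear_combination h2
  have h2 : ∀ x y, B (n x) (n y) = 0 := by
    intro x y
    have h3 := hb (n x) y
    rw [hnn, hbx, T.qf.add_right] at h3
    linear_combination h3
  have h3 : ∀ x y, B (n x) y = - B x (n y) := by
    intro x y
    linear_combination h1 x y - h2 x y
  have hQn : ∀ x, Q (n x) = 0 := by
    intro x
    have h4 := h2 x x
    rw [T.qf.self] at h4
    exact (mul_eq_zero.mp h4).resolve_left T.two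
  have hself : ∀ x, B (n x) x = 0 := by
    intro x
    have h4 := h3 x x
    rw [T.qf.comm x (n x)] at h4
    have h5 : (2 : F) * B (n x) x = 0 := by linear_combination h4
    exact (mul_eq_zero.mp h5).resolve_left T.two
  -- `n = 0`
  have hn0 : ∀ x, n x = 0 := by
    intro x
    by_contra hx
    -- all `n y` are multiples of `s = n x`
    have h4 : ∀ y, ∃ c : F, n y = c • n x := fun y => hmin (n x) (n y) hx (hQn x) (hQn y) (h2 x y)
    -- there is `y` with `B (n x) y ≠ 0`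
    obtain ⟨y, hy⟩ := T.nd (n x) hx
    have hxy : ∀ z, B (n x) z ≠ 0 → n z = 0 := by
      intro z hz
      obtain ⟨c, hc⟩ := h4 z
      have h5 := hself z
      rw [hc, T.qf.smul_left] at h5
      rw [hc, (mul_eq_zero.mp h5).resolve_right hz, zero_smul]
    have h5 := hxy y hy
    have h6 := h3 x y
    rw [h5, T.qf.zero_right, neg_zero] at h6
    exact hy h6
  apply Units.ext
  apply Matrix.ext_of_mulVec_single
  intro i
  rw [hbx, hn0, zero_add, Units.val_one, Matrix.one_mulVec]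

end Cfsg.Agent.H919.Four
end

-- part: H919/FourG
section
/-!
# `Sp_2(q) ⊗ O_n(q)` in `Sp_{2n}(q)`: wrapper for the dichotomy (helper919, after helper924)
-/

set_option autoImplicit false
set_option linter.unusedSectionVars false

open Cfsg Cfsg.Geo Matrix
open scoped Kronecker

namespace Cfsg.Agent.H919.Four

open Cfsg.Agent.H929 (QF rB)
open Cfsg.Agent.H872 Cfsg.Agent.H924.Ten

variable {F : Type*} [Field F]

/-- **`Sp_2(q) ⊗ O_n(q)` is maximal in `Sp_{2m}(q)`**, `q` odd, `n ≥ 3`, if the dichotomy holds. -/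
theorem tensor_two_maximal_of [Fintype F] {m n₂ : ℕ} (hn₂ : 3 ≤ n₂) (hodd : Odd (Fintype.card F))
    (e : (Fin m ⊕ Fin m) ≃ Fin 2 × Fin n₂) (P : Matrix.GeneralLinearGroup (Fin m ⊕ Fin m) F)
    (f₁ : (Fin 2 → F) → (Fin 2 → F) → F) (f₂ : (Fin n₂ → F) → (Fin n₂ → F) → F)
    (hf₁ : Cfsg.Geo.IsSymplecticForm f₁) (hf₂ : Cfsg.Geo.IsSymmetricForm f₂)
    (hT : Cfsg.Geo.IsTensorFormStructure id (Cfsg.sympForm m F) f₁ f₂ e P)
    (hdich : ∀ c : F, c ≠ 0 → ∀ f : (Fin 2 × Fin n₂ → F) → (Fin 2 × Fin n₂ → F) → F,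
      Tens f₁ (fun x => c / 2 * f₂ x x) (fun x y => c * f₂ x y) f →
      ∀ M : Subgroup (GL (Fin 2 × Fin n₂) F), Grp f₁ (fun x y => c * f₂ x y) f M →
        Dich (fun x => c / 2 * f₂ x x) f M) :
    Cfsg.Geo.IsMaximalIn (Cfsg.spGL m F) (Cfsg.Geo.tensorProductSubgroup 2 n₂ e P ⊓ Cfsg.spGL m F) := by
  classical
  have h2 : (2 : F) ≠ 0 := by
    intro h
    have h3 : ringChar F = 2 := by
      have h4 : ringChar F ∣ 2 := (ringChar.spec F 2).mp (by exact_mod_cast h)
      rcases (Nat.dvd_prime Nat.prime_two).mp h4 with h5 | h5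
      · exact absurd h5 (CharP.ringChar_ne_one)
      · exact h5
    have := FiniteField.even_card_of_char_two h3
    rw [Nat.odd_iff] at hodd
    omega
  obtain ⟨c, hc, hform⟩ := Cfsg.Agent.H883.Tensor.form_pure hf₁.bilinear hf₂.bilinear hT
  set Φ := Cfsg.Agent.H883.Tensor.vec e P with hΦ
  have hm : 1 ≤ m := by
    have := Fintype.card_congr e
    simp only [Fintype.card_sum, Fintype.card_fin, Fintype.card_prod] at this
    omega
  -- the set-up
  set f : (Fin 2 × Fin n₂ → F) → (Fin 2 × Fin n₂ → F) → F := fun x y => sympForm m F (Φ x) (Φ y) with hf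
  have hsf : IsSymplecticForm (sympForm m F) := Cfsg.Agent.H924.isSymplecticForm_sympForm
  have T : Tens f₁ (fun x => c / 2 * f₂ x x) (fun x y => c * f₂ x y) f :=
    { sym := hf₁
      qf :=
        { smul := fun a v => by
            simp only [hf₂.bilinear.smul_left, hf₂.bilinear.smul_right]; ring
          add := fun x y => by
            simp only [hf₂.bilinear.add_left, hf₂.bilinear.add_right, hf₂.symm y x]
            field_simp
            ring
          add_left := fun x y v => by simp only [hf₂.bilinear.add_left]; ring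
          smul_left := fun a x v => by simp only [hf₂.bilinear.smul_left]; ring }
      nd := fun x hx => by
        obtain ⟨y, hy⟩ := (hf₂.nondegenerate x hx).2
        exact ⟨y, mul_ne_zero hc hy⟩
      two := h2
      bil :=
        { add_left := fun x y v => by simp only [hf, map_add, hsf.bilinear.add_left]
          smul_left := fun a x v => by simp only [hf, map_smul, hsf.bilinear.smul_left]
          add_right := fun v x y => by simp only [hf, map_add, hsf.bilinear.add_right]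
          smul_right := fun a v x => by simp only [hf, map_smul, hsf.bilinear.smul_right] }
      ten := fun u w u' w' => by
        have := hform u u' w w'
        show sympForm m F (Φ (ten u w)) (Φ (ten u' w')) = f₁ u u' * (c * f₂ w w')
        rw [show sympForm m F (Φ (ten u w)) (Φ (ten u' w')) = c * (f₁ u u' * f₂ w w') from this]
        ring }
  refine Cfsg.Agent.H875.isMaximalIn_of _ ?_ ?_
  · have h3 := Cfsg.Agent.H931.spGL_not_le_tensorProductSubgroup (F := F) hm (le_refl 2) (by omega : 2 ≤ n₂) e P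
    obtain ⟨g, hg, hg'⟩ := SetLike.not_le_iff_exists.mp h3
    rw [← Cfsg.Agent.H875.toGL_range] at hg
    obtain ⟨g₀, rfl⟩ := hg
    exact ⟨g₀, hg'⟩
  intro M₀ hKM hprop
  set M : Subgroup (GL (Fin 2 × Fin n₂) F) := (M₀.map (Cfsg.Agent.H875.toGL m F)).comap (theta e P).toMonoidHom
    with hM
  have hG : Grp f₁ (fun x y => c * f₂ x y) f M :=
    { iso := by
        intro g hg v w
        obtain ⟨g₀, hg₀, hgg⟩ := hg
        have h4 := Cfsg.Agent.H875.toGL_mem_spGL (m := m) (F := F) g₀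
        rw [hgg, Cfsg.Agent.H875.mem_spGL_iff] at h4
        have h5 := h4 (Φ v) (Φ w)
        show sympForm m F (Φ ((g : Matrix _ _ F) *ᵥ v)) (Φ ((g : Matrix _ _ F) *ᵥ w)) = sympForm m F (Φ v) (Φ w)
        rw [hΦ, ← theta_vec, ← theta_vec]
        exact h5
      mem := by
        intro a b μ hμ ha hb
        -- the element is an isometry
        have h4 : theta e P (kr (a, b)) ∈ spGL m F := by
          rw [Cfsg.Agent.H875.mem_spGL_iff]
          have h5 : ∀ x y, f ((kr (a, b) : Matrix (Fin 2 × Fin n₂) (Fin 2 × Fin n₂) F) *ᵥ x)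
              ((kr (a, b) : Matrix (Fin 2 × Fin n₂) (Fin 2 × Fin n₂) F) *ᵥ y) = f x y := by
            have hpt : ∀ x u' w', f ((kr (a, b) : Matrix (Fin 2 × Fin n₂) (Fin 2 × Fin n₂) F) *ᵥ x)
                ((kr (a, b) : Matrix (Fin 2 × Fin n₂) (Fin 2 × Fin n₂) F) *ᵥ ten u' w') = f x (ten u' w') := by
              intro x u' w'
              let L1 : (Fin 2 × Fin n₂ → F) →ₗ[F] F :=
                { toFun := fun x => f ((kr (a, b) : Matrix (Fin 2 × Fin n₂) (Fin 2 × Fin n₂) F) *ᵥ x)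
                    ((kr (a, b) : Matrix (Fin 2 × Fin n₂) (Fin 2 × Fin n₂) F) *ᵥ ten u' w')
                  map_add' := fun x y => by rw [Matrix.mulVec_add, T.bil.add_left]
                  map_smul' := fun r x => by rw [Matrix.mulVec_smul, T.bil.smul_left]; rfl }
              let L2 : (Fin 2 × Fin n₂ → F) →ₗ[F] F :=
                { toFun := fun x => f x (ten u' w')
                  map_add' := fun x y => by rw [T.bil.add_left]
                  map_smul' := fun r x => by rw [T.bil.smul_left]; rfl }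
              have h6 : L1 = L2 := by
                apply linearMap_ext_ten
                intro u w
                show f ((kr (a, b) : Matrix (Fin 2 × Fin n₂) (Fin 2 × Fin n₂) F) *ᵥ ten u w)
                    ((kr (a, b) : Matrix (Fin 2 × Fin n₂) (Fin 2 × Fin n₂) F) *ᵥ ten u' w') = f (ten u w) (ten u' w')
                rw [kr_mulVec_ten, kr_mulVec_ten, T.ten, T.ten, ha, hb]
                field_simp
              exact congrArg (fun X : (Fin 2 × Fin n₂ → F) →ₗ[F] F => X x) h6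
            intro x y
            let L1 : (Fin 2 × Fin n₂ → F) →ₗ[F] F :=
              { toFun := fun y => f ((kr (a, b) : Matrix (Fin 2 × Fin n₂) (Fin 2 × Fin n₂) F) *ᵥ x)
                  ((kr (a, b) : Matrix (Fin 2 × Fin n₂) (Fin 2 × Fin n₂) F) *ᵥ y)
                map_add' := fun x y => by rw [Matrix.mulVec_add, T.bil.add_right]
                map_smul' := fun r x => by rw [Matrix.mulVec_smul, T.bil.smul_right]; rfl }
            let L2 : (Fin 2 × Fin n₂ → F) →ₗ[F] F :=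
              { toFun := fun y => f x y
                map_add' := fun x y => by rw [T.bil.add_right]
                map_smul' := fun r x => by rw [T.bil.smul_right]; rfl }
            have h6 : L1 = L2 := by
              apply linearMap_ext_ten
              intro u w
              exact hpt x u w
            exact congrArg (fun X : (Fin 2 × Fin n₂ → F) →ₗ[F] F => X y) h6
          intro u v
          have h6 := h5 (Φ.symm u) (Φ.symm v)
          have h7 : ∀ z, Φ ((kr (a, b) : Matrix (Fin 2 × Fin n₂) (Fin 2 × Fin n₂) F) *ᵥ (Φ.symm z)) =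
              (theta e P (kr (a, b)) : Matrix _ _ F) *ᵥ z := by
            intro z
            rw [hΦ, ← theta_vec, LinearEquiv.apply_symm_apply]
          have h8 : sympForm m F (Φ ((kr (a, b) : Matrix (Fin 2 × Fin n₂) (Fin 2 × Fin n₂) F) *ᵥ (Φ.symm u)))
              (Φ ((kr (a, b) : Matrix (Fin 2 × Fin n₂) (Fin 2 × Fin n₂) F) *ᵥ (Φ.symm v))) =
              sympForm m F (Φ (Φ.symm u)) (Φ (Φ.symm v)) := h6
          rw [h7, h7, LinearEquiv.apply_symm_apply, LinearEquiv.apply_symm_apply] at h8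
          exact h8
        rw [← Cfsg.Agent.H875.toGL_range] at h4
        obtain ⟨g₀, hg₀⟩ := h4
        refine ⟨g₀, hKM ?_, hg₀⟩
        show Cfsg.Agent.H875.toGL m F g₀ ∈ tensorProductSubgroup 2 n₂ e P
        rw [hg₀]
        exact theta_kr_mem e P (a, b) }
  rcases hdich c hc f T M hG with htr | htens
  · -- transvections
    have hfull : ∀ (u : Fin 2 → F) (s : Fin n₂ → F), (c / 2 * f₂ s s = 0) →
        Cfsg.Agent.H875.Full M₀ (Φ (ten u s)) := by
      intro u s hs d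
      obtain ⟨g', ⟨g₀, hg₀, hgg⟩, hact⟩ := htr d u s hs
      have h4 : g₀ = Cfsg.Agent.ClassicalGeometry.SympBasic.transv (Φ (ten u s)) d := by
        apply Subtype.ext
        apply Matrix.ext_of_mulVec_single
        intro i
        rw [Cfsg.Agent.ClassicalGeometry.SympBasic.coe_transv,
          Cfsg.Agent.ClassicalGeometry.SympBasic.sympTransvection_mulVec]
        have h5 : (g₀ : Matrix (Fin m ⊕ Fin m) (Fin m ⊕ Fin m) F) =
            (theta e P g' : Matrix (Fin m ⊕ Fin m) (Fin m ⊕ Fin m) F) := by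
          rw [← Cfsg.Agent.H875.coe_toGL, hgg]; rfl
        rw [h5]
        have h6 := theta_vec e P g' (Φ.symm (Pi.single i 1))
        rw [hact, ← hΦ, LinearEquiv.apply_symm_apply, map_add, map_smul, LinearEquiv.apply_symm_apply] at h6
        rw [h6]
        show _ + (d * sympForm m F (Φ (Φ.symm (Pi.single i 1))) (Φ (ten u s))) • _ = _
        rw [LinearEquiv.apply_symm_apply]
      rw [← h4]
      exact hg₀
    apply Cfsg.Agent.H875.eq_top_of_full
    have hβ3 : 3 ≤ Fintype.card (Fin n₂) := by rw [Fintype.card_fin]; omega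
    have hnd : ∀ x ∈ (⊤ : Submodule F (Fin n₂ → F)), x ≠ 0 →
        ∃ y ∈ (⊤ : Submodule F (Fin n₂ → F)), c * f₂ x y ≠ 0 :=
      fun x _ hx => by obtain ⟨y, hy⟩ := T.nd x hx; exact ⟨y, trivial, hy⟩
    obtain ⟨a₀, -, ha₀, hQa₀⟩ := T.qf.exists_singular h2 ⊤ hnd (by
      rw [finrank_top, Module.finrank_fintype_fun_eq_card, Fintype.card_fin]; omega)
    set X : Set (Fin m ⊕ Fin m → F) := {x | ∃ (u : Fin 2 → F) (s : Fin n₂ → F), u ≠ 0 ∧ s ≠ 0 ∧
      c / 2 * f₂ s s = 0 ∧ x = Φ (ten u s)} with hX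
    have hsp : ∀ v : Fin m ⊕ Fin m → F, v ≠ 0 → ∃ x ∈ X, sympForm m F v x ≠ 0 := by
      intro v hv
      set v' := Φ.symm v with hv'
      have hv'0 : v' ≠ 0 := by
        intro h
        apply hv
        have := congrArg Φ h
        rwa [hv', LinearEquiv.apply_symm_apply, map_zero] at this
      obtain ⟨⟨i, j⟩, hij⟩ := Function.ne_iff.mp hv'0
      have hrow : (fun j => v' (i, j)) ≠ 0 := fun h => hij (congrFun h j)
      obtain ⟨s, -, hQs, hs⟩ := T.qf.exists_singular_not_orth ⊤ hnd (a := a₀) trivial ha₀ hQa₀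
        (x := fun j => v' (i, j)) trivial hrow
      have hR : R (fun x y => c * f₂ x y) s v' ≠ 0 := by
        intro h
        have h4 := congrFun h i
        rw [T.R_coord] at h4
        apply hs
        have h5 := T.qf.comm (fun j => v' (i, j)) s
        rw [h5]
        exact h4
      obtain ⟨u, hu⟩ := (T.sym.nondegenerate _ hR).2
      have hu0 : u ≠ 0 := by
        rintro rfl
        apply hu
        have := T.sym.bilinear.smul_right 0 (R (fun x y => c * f₂ x y) s v') 0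
        simpa using this
      have hs0 : s ≠ 0 := by
        rintro rfl
        apply hs
        exact T.qf.zero_right _
      refine ⟨Φ (ten u s), ⟨u, s, hu0, hs0, hQs, rfl⟩, ?_⟩
      rw [← T.form_R] at hu
      have h6 : f v' (ten u s) = sympForm m F v (Φ (ten u s)) := by
        show sympForm m F (Φ v') (Φ (ten u s)) = _
        rw [hv', LinearEquiv.apply_symm_apply]
      rwa [h6] at hu
    refine Cfsg.Agent.H875.full_of_connected (M := M₀) ⟨1, one_ne_zero, ?_⟩ X ?_ hsp ?_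
    · intro h
      apply h2
      linear_combination h
    · rintro x ⟨u, s, -, -, hs, rfl⟩
      exact hfull u s hs
    · intro W hW0 hW1
      by_contra hcon
      push Not at hcon
      -- either `x ∈ W` or `x ⟂ W`
      have hdich : ∀ x ∈ X, x ∈ W ∨ ∀ w ∈ W, sympForm m F w x = 0 := by
        intro x hx
        by_cases h : x ∈ W
        · exact Or.inl h
        · exact Or.inr (hcon x hx h)
      by_cases hex : ∃ (u : Fin 2 → F) (s : Fin n₂ → F), u ≠ 0 ∧ s ≠ 0 ∧ c / 2 * f₂ s s = 0 ∧ Φ (ten u s) ∈ W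
      · obtain ⟨u, s, hu, hs, hQs, hin⟩ := hex
        have hall : ∀ x ∈ X, x ∈ W := by
          rintro x ⟨u', s', hu', hs', hQs', rfl⟩
          refine T.conn hβ3 (fun u s => Φ (ten u s) ∈ W) ?_ hu hs hQs hin hu' hs' hQs'
          intro u s u' t hQs hQt hin huu hst
          have hu'0 : u' ≠ 0 := by
            rintro rfl
            apply huu
            have := T.sym.bilinear.smul_right 0 u 0
            simpa using this
          have ht0 : t ≠ 0 := by
            rintro rfl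
            exact hst (T.qf.zero_right _)
          rcases hdich _ ⟨u', t, hu'0, ht0, hQt, rfl⟩ with h | h
          · exact h
          · exfalso
            have h4 := h _ hin
            have h5 : sympForm m F (Φ (ten u s)) (Φ (ten u' t)) = f₁ u u' * (c * f₂ s t) := T.ten u s u' t
            rw [h5] at h4
            exact mul_ne_zero huu hst h4
        -- W is everything
        apply hW1
        by_contra hWt
        have h4 := Cfsg.Agent.H924.finrank_perpOf Cfsg.Agent.H924.hermForm_sympForm W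
        have h5 : Cfsg.Agent.H924.perpOf Cfsg.Agent.H924.hermForm_sympForm W ≠ ⊥ := by
          intro h
          rw [h, finrank_bot] at h4
          have h6 := Submodule.finrank_lt hWt
          rw [Module.finrank_fintype_fun_eq_card] at h6
          omega
        obtain ⟨v, hv, hv0⟩ := (Submodule.ne_bot_iff _).mp h5
        obtain ⟨x, hx, hvx⟩ := hsp v hv0
        rw [Cfsg.Agent.H924.mem_perpOf] at hv
        exact hvx (hv x (hall x hx))
      · push Not at hex
        apply hW0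
        rw [Submodule.eq_bot_iff]
        intro w hw
        by_contra hw0
        obtain ⟨x, hx, hwx⟩ := hsp w hw0
        obtain ⟨u, s, hu, hs, hQs, rfl⟩ := hx
        rcases hdich _ ⟨u, s, hu, hs, hQs, rfl⟩ with h | h
        · exact hex u s hu hs hQs h
        · exact hwx (h w hw)
  · -- tensors
    exfalso
    obtain ⟨g, hg, hgK⟩ := hprop
    apply hgK
    have h4 : (theta e P).symm (Cfsg.Agent.H875.toGL m F g) ∈ M := by
      refine ⟨g, hg, ?_⟩
      show _ = theta e P ((theta e P).symm _)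
      rw [MulEquiv.apply_symm_apply]
    obtain ⟨x, hx⟩ := htens _ h4
    have h5 := theta_kr_mem e P x
    rw [hx, MulEquiv.apply_symm_apply] at h5
    exact h5

end Cfsg.Agent.H919.Four
end

-- part: H919/FourH
section
/-!
# `Sp_2(q) ⊗ O_4^-(q)` in `Sp_8(q)`: the minus type hypothesis (helper919)
-/

set_option autoImplicit false
set_option linter.unusedSectionVars false

open Cfsg Cfsg.Geo Matrix
open scoped Kronecker

namespace Cfsg.Agent.H919.Four

open Cfsg.Agent.H929 (QF rB)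
open Cfsg.Agent.H872 Cfsg.Agent.H924.Ten

variable {F : Type*} [Field F]

lemma two_ne_of_odd [Fintype F] (hodd : Odd (Fintype.card F)) : (2 : F) ≠ 0 := by
  intro h
  have h3 : ringChar F = 2 := by
    have h4 : ringChar F ∣ 2 := (ringChar.spec F 2).mp (by exact_mod_cast h)
    rcases (Nat.dvd_prime Nat.prime_two).mp h4 with h5 | h5
    · exact absurd h5 (CharP.ringChar_ne_one)
    · exact h5
  have := FiniteField.even_card_of_char_two h3
  rw [Nat.odd_iff] at hodd
  omega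

/-- singular vectors of a four-dimensional space of minus type are pairwise nonorthogonal -/
lemma min_of_minus (h2 : (2 : F) ≠ 0) {f₂ : (Fin 4 → F) → (Fin 4 → F) → F} (hf₂ : IsSymmetricForm f₂)
    (hminus : ¬ IsPlusTypeOn (fun v : Fin 4 → F => f₂ v v) ⊤) {c : F} (hc : c ≠ 0)
    (x y : Fin 4 → F) (hx : x ≠ 0) (hQx : c / 2 * f₂ x x = 0) (hQy : c / 2 * f₂ y y = 0) (hxy : c * f₂ x y = 0) :
    ∃ d : F, y = d • x := by
  classical
  have hc2 : c / 2 ≠ 0 := div_ne_zero hc h2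
  have hxx := (mul_eq_zero.mp hQx).resolve_left hc2
  have hyy := (mul_eq_zero.mp hQy).resolve_left hc2
  have hxy' := (mul_eq_zero.mp hxy).resolve_left hc
  have hyx' : f₂ y x = 0 := by rw [hf₂.symm, hxy']
  by_contra hcon
  push Not at hcon
  apply hminus
  have hli : LinearIndependent F ![x, y] := by
    rw [LinearIndependent.pair_iff' hx]
    intro a ha
    exact hcon a ha.symm
  refine ⟨Submodule.span F (Set.range ![x, y]), le_top, ?_, ?_⟩
  · intro w hw
    have hr : Set.range ![x, y] = {x, y} := by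
      simp [Matrix.range_cons, Matrix.range_empty]
      exact Set.pair_comm _ _
    rw [hr, Submodule.mem_span_pair] at hw
    obtain ⟨a, b, rfl⟩ := hw
    show f₂ _ _ = 0
    simp only [hf₂.bilinear.add_left, hf₂.bilinear.add_right, hf₂.bilinear.smul_left, hf₂.bilinear.smul_right, hxx, hyy,
      hxy', hyx']
    ring
  · rw [finrank_span_eq_card hli, finrank_top, Module.finrank_fintype_fun_eq_card]
    simp

/-- the second factor has no square-zero unipotent isometries -/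
lemma noSq_of_minus {f₁ : (Fin 2 → F) → (Fin 2 → F) → F} {f : (Fin 2 × Fin 4 → F) → (Fin 2 × Fin 4 → F) → F}
    {f₂ : (Fin 4 → F) → (Fin 4 → F) → F} (hf₂ : IsSymmetricForm f₂)
    (hminus : ¬ IsPlusTypeOn (fun v : Fin 4 → F => f₂ v v) ⊤) {c : F} (hc : c ≠ 0)
    (T : Tens f₁ (fun x => c / 2 * f₂ x x) (fun x y => c * f₂ x y) f) : NoSq (fun x y => c * f₂ x y) :=
  noSq_of_min T (min_of_minus T.two hf₂ hminus hc)

/-- **Item (8) of S5822 for `q ≥ 5`.** -/
theorem tensor_minus_maximal5 [Fintype F] (hodd : Odd (Fintype.card F)) (hq : 3 < Fintype.card F)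
    (e : (Fin 4 ⊕ Fin 4) ≃ Fin 2 × Fin 4) (P : GL (Fin 4 ⊕ Fin 4) F)
    (f₁ : (Fin 2 → F) → (Fin 2 → F) → F) (f₂ : (Fin 4 → F) → (Fin 4 → F) → F)
    (hf₁ : IsSymplecticForm f₁) (hf₂ : IsSymmetricForm f₂)
    (hminus : ¬ IsPlusTypeOn (fun v : Fin 4 → F => f₂ v v) ⊤)
    (hT : IsTensorFormStructure id (sympForm 4 F) f₁ f₂ e P) :
    IsMaximalIn (spGL 4 F) (tensorProductSubgroup 2 4 e P ⊓ spGL 4 F) := by
  have h2 := two_ne_of_odd hodd
  refine tensor_two_maximal_of (by norm_num) hodd e P f₁ f₂ hf₁ hf₂ hT ?_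
  intro c hc f T M hM
  refine dich5 T hq hM ?_ (by simp) (noSq_of_minus hf₂ hminus hc T)
  rw [Fintype.card_fin]
  have : ((4 : ℕ) : F) = 2 * 2 := by push_cast; ring
  rw [this]
  exact mul_ne_zero h2 h2

end Cfsg.Agent.H919.Four
end

-- part: H919/FourI
section
/-!
# `Sp_2(q) ⊗ O_4^-(q)` in `Sp_8(q)`: the TI property of `1 ⊗ h`, `h` a Siegel element (helper919)
-/

set_option autoImplicit false
set_option linter.unusedSectionVars false

open Cfsg Cfsg.Geo Matrix
open scoped Kronecker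

namespace Cfsg.Agent.H919.Four

open Cfsg.Agent.H929 (QF rB)
open Cfsg.Agent.H872 Cfsg.Agent.H924.Ten

variable {β : Type} [Fintype β] [DecidableEq β] {F : Type*} [Field F]
variable {f₁ : (Fin 2 → F) → (Fin 2 → F) → F} {Q : (β → F) → F} {B : (β → F) → (β → F) → F}
  {f : (Fin 2 × β → F) → (Fin 2 × β → F) → F}

variable (T : Tens f₁ Q B f) {M : Subgroup (GL (Fin 2 × β) F)} (hM : Grp f₁ B f M)

include T

/-- **Lemma K**: the fixed space of `t ⊗ b` for a transvection `t ≠ 1` embeds in the kernel of `(b - 1)²`. -/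
lemma fix_le {e : Fin 2 → F} (he : e ≠ 0) {c : F} (hc : c ≠ 0) {a : GL (Fin 2) F}
    (ha : ∀ u, (a : Matrix (Fin 2) (Fin 2) F) *ᵥ u = u + (c * f₁ u e) • e) (b : GL β F) :
    Module.finrank F (fixS (kr (a, b))) ≤
      Module.finrank F (LinearMap.ker ((Matrix.toLin' (b : Matrix β β F) - LinearMap.id) ∘ₗ
        (Matrix.toLin' (b : Matrix β β F) - LinearMap.id))) := by
  obtain ⟨e', he'⟩ := exists_dual T he
  have hee' : f₁ e e' = -1 := by rw [T.sym.skew, he']
  have hae : (a : Matrix (Fin 2) (Fin 2) F) *ᵥ e = e := by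
    rw [ha, T.sym.alternating, mul_zero, zero_smul, add_zero]
  have hae' : (a : Matrix (Fin 2) (Fin 2) F) *ᵥ e' = e' + c • e := by rw [ha, he', mul_one]
  -- the equations of a fixed vector
  have key : ∀ v, v ∈ fixS (kr (a, b)) →
      (b : Matrix β β F) *ᵥ (Lc f₁ e v) = Lc f₁ e v ∧
      (b : Matrix β β F) *ᵥ (- Lc f₁ e' v) - (- Lc f₁ e' v) = - (c • Lc f₁ e v) := by
    intro v hv
    rw [mem_fixS] at hv
    set x := - Lc f₁ e' v with hx
    set y := Lc f₁ e v with hy
    have hv1 : v = ten e x + ten e' y := expand_ten T he' v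
    have h1 : ten e ((b : Matrix β β F) *ᵥ x) + ten (e' + c • e) ((b : Matrix β β F) *ᵥ y) = ten e x + ten e' y := by
      conv_rhs => rw [← hv1, ← hv, hv1]
      rw [Matrix.mulVec_add, kr_mulVec_ten, kr_mulVec_ten, hae, hae']
    have h2 := congrArg (Lc f₁ e) h1
    rw [map_add, map_add, L_ten T, L_ten T, L_ten T, L_ten T, T.sym.bilinear.add_left, T.sym.bilinear.smul_left,
      T.sym.alternating, he', mul_zero, add_zero, zero_smul, zero_smul, zero_add, zero_add, one_smul, one_smul] at h2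
    have h3 := congrArg (Lc f₁ e') h1
    rw [map_add, map_add, L_ten T, L_ten T, L_ten T, L_ten T, T.sym.bilinear.add_left, T.sym.bilinear.smul_left,
      T.sym.alternating, hee', h2] at h3
    refine ⟨h2, ?_⟩
    have h4 : (b : Matrix β β F) *ᵥ x = x - c • y := by
      have h5 : -((b : Matrix β β F) *ᵥ x) + -(c • y) = -x := by
        have h6 : (-1 : F) • ((b : Matrix β β F) *ᵥ x) + (0 + c * -1) • y = (-1 : F) • x + (0 : F) • y := h3
        rw [neg_smul, one_smul, zero_add, mul_neg, mul_one, neg_smul, neg_smul, one_smul, zero_smul, add_zero] at h6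
        exact h6
      have h7 : (b : Matrix β β F) *ᵥ x = x + -(c • y) := by
        have h8 : x + (b : Matrix β β F) *ᵥ x + (-((b : Matrix β β F) *ᵥ x) + -(c • y)) =
            x + (b : Matrix β β F) *ᵥ x + -x := by rw [h5]
        have h9 : x + (b : Matrix β β F) *ᵥ x + (-((b : Matrix β β F) *ᵥ x) + -(c • y)) = x + -(c • y) := by abel
        have h10 : x + (b : Matrix β β F) *ᵥ x + -x = (b : Matrix β β F) *ᵥ x := by abel
        rw [h9, h10] at h8
        exact h8.symm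
      rw [h7]; abel
    rw [h4]; abel
  let L : (fixS (kr (a, b)) : Submodule F (Fin 2 × β → F)) →ₗ[F]
      LinearMap.ker ((Matrix.toLin' (b : Matrix β β F) - LinearMap.id) ∘ₗ
        (Matrix.toLin' (b : Matrix β β F) - LinearMap.id)) :=
    { toFun := fun v => ⟨- Lc f₁ e' v.1, by
        obtain ⟨h1, h2⟩ := key v.1 v.2
        rw [LinearMap.mem_ker, LinearMap.comp_apply]
        have h3 : (Matrix.toLin' (b : Matrix β β F) - (LinearMap.id : (β → F) →ₗ[F] (β → F))) (- Lc f₁ e' v.1) =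
            - (c • Lc f₁ e v.1) := h2
        rw [h3]
        show (Matrix.toLin' (b : Matrix β β F)) (- (c • Lc f₁ e v.1)) - (- (c • Lc f₁ e v.1)) = 0
        rw [Matrix.toLin'_apply, Matrix.mulVec_neg, Matrix.mulVec_smul, h1, sub_self]⟩
      map_add' := fun v w => Subtype.ext (by
        show - Lc f₁ e' (v.1 + w.1) = - Lc f₁ e' v.1 + - Lc f₁ e' w.1
        rw [map_add]; abel)
      map_smul' := fun r v => Subtype.ext (by
        show - Lc f₁ e' (r • v.1) = r • (- Lc f₁ e' v.1)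
        rw [map_smul, smul_neg]) }
  apply LinearMap.finrank_le_finrank_of_injective (f := L)
  rw [← LinearMap.ker_eq_bot, LinearMap.ker_eq_bot']
  intro v hv
  have h0 : - Lc f₁ e' v.1 = 0 := congrArg Subtype.val hv
  obtain ⟨h1, h2⟩ := key v.1 v.2
  rw [h0, Matrix.mulVec_zero, sub_zero] at h2
  have h3 : Lc f₁ e v.1 = 0 := by
    have h4 := neg_eq_zero.mp h2.symm
    exact (smul_eq_zero.mp h4).resolve_left hc
  apply Subtype.ext
  show v.1 = 0
  rw [expand_ten T he' v.1, h0, h3, ten_zero_right, ten_zero_right, add_zero]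

/-- **TI_B** in dimension `4`. -/
theorem tiB [Finite F] (hβ4 : Fintype.card β = 4) (hM : Grp f₁ B f M) {s a : β → F} (hs : s ≠ 0) (hQs : Q s = 0)
    (hnc : NoC B M s) (hsa : B s a = 0) (hQa : Q a ≠ 0) (hsq : NoSq B) {h : GL β F} (hh : Sieg Q B s a h)
    (hhiso : ∀ x, Q ((h : Matrix β β F) *ᵥ x) = Q x)
    {g : GL (Fin 2 × β) F} (hg : g ∈ M)
    (hx : ∃ x : GL (Fin 2) F × GL β F, kr x = g * kr ((1 : GL (Fin 2) F), h) * g⁻¹) :
    ∃ x : GL (Fin 2) F × GL β F, kr x = g := by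
  classical
  obtain ⟨p, hp⟩ := CharP.exists F
  have hpp : p.Prime := by
    rcases CharP.char_is_prime_or_zero F p with h | h
    · exact h
    · exfalso
      subst h
      have := CharP.charP_to_charZero F
      exact not_finite F
  have : Fact p.Prime := ⟨hpp⟩
  have hdM : kr ((1 : GL (Fin 2) F), h) ∈ M := T.one_kr_mem hM (T.B_iso hhiso)
  have hdp : kr ((1 : GL (Fin 2) F), h) ^ p ^ 1 = 1 := by
    have h1 : h ^ p = 1 := by
      apply Units.ext
      apply Matrix.ext_of_mulVec_single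
      intro i
      rw [T.sieg_pow hQs hsa hh, CharP.cast_eq_zero F p, Units.val_one, Matrix.one_mulVec]
      simp
    rw [pow_one, ← map_pow, Prod.pow_mk, one_pow, h1]
    exact map_one kr
  obtain ⟨⟨z₁, z₂⟩, hy⟩ := hx
  have hyM : kr (z₁, z₂) ∈ M := by rw [hy]; exact M.mul_mem (M.mul_mem hg hdM) (M.inv_mem hg)
  have hyp : kr (z₁, z₂) ^ p ^ 1 = 1 := by
    rw [hy, conj_pow, hdp, mul_one, mul_inv_cancel]
  obtain ⟨y₁, y₂, hab, hy₁iso, hy₂iso, ⟨e', he', c', hy₁⟩, -⟩ := unip T hs hM hyM hyp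
  rw [← hab] at hy
  set d := kr ((1 : GL (Fin 2) F), h) with hd
  have hiso := hM.iso g hg
  -- d' (g v) = g (d v)
  have hconj : ∀ v, (kr (y₁, y₂) : Matrix (Fin 2 × β) (Fin 2 × β) F) *ᵥ
      ((g : Matrix (Fin 2 × β) (Fin 2 × β) F) *ᵥ v) = (g : Matrix (Fin 2 × β) (Fin 2 × β) F) *ᵥ
      ((d : Matrix (Fin 2 × β) (Fin 2 × β) F) *ᵥ v) := by
    intro v
    rw [hy, gl_mul_mulVec, gl_mul_mulVec, gl_inv_mulVec]
  -- y₁ is scalar
  have hsc : ∃ c : F, ∀ u, (y₁ : Matrix (Fin 2) (Fin 2) F) *ᵥ u = c • u := by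
    by_cases hc' : c' = 0
    · refine ⟨1, fun u => ?_⟩
      rw [hy₁, hc', zero_mul, zero_smul, add_zero, one_smul]
    exfalso
    -- dimension of the fixed space
    have h1 := fix_le T he' hc' hy₁ y₂
    rw [hy, finrank_fixS_conj, hd, finrank_fixS_one_kr, Fintype.card_fin] at h1
    have h2 : 2 ≤ Module.finrank F (fixS h) := by
      let L : (β → F) →ₗ[F] F × F :=
        { toFun := fun x => (B x s, B x a)
          map_add' := fun x y => by rw [T.qf.add_left, T.qf.add_left]; rfl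
          map_smul' := fun r x => by rw [T.qf.smul_left, T.qf.smul_left]; rfl }
      have h3 := L.finrank_range_add_finrank_ker
      have h4 : Module.finrank F (LinearMap.range L) ≤ 2 := by
        refine (Submodule.finrank_le _).trans ?_
        simp
      have h5 : LinearMap.ker L ≤ fixS h := by
        intro x hx
        have h6 : (B x s, B x a) = 0 := hx
        rw [Prod.mk_eq_zero] at h6
        rw [mem_fixS, hh, h6.1, h6.2, zero_smul, zero_smul, mul_zero, zero_smul, add_zero, sub_zero, sub_zero]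
      have h7 := Submodule.finrank_mono h5
      rw [Module.finrank_fintype_fun_eq_card, hβ4] at h3
      omega
    have h3 : LinearMap.ker ((Matrix.toLin' (y₂ : Matrix β β F) - LinearMap.id) ∘ₗ
        (Matrix.toLin' (y₂ : Matrix β β F) - LinearMap.id)) = ⊤ := by
      apply Submodule.eq_top_of_finrank_eq
      apply le_antisymm (Submodule.finrank_le _)
      rw [Module.finrank_fintype_fun_eq_card, hβ4]
      omega
    have h4 : y₂ = 1 := by
      apply hsq y₂ hy₂iso
      intro x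
      have h5 : x ∈ LinearMap.ker ((Matrix.toLin' (y₂ : Matrix β β F) - LinearMap.id) ∘ₗ
        (Matrix.toLin' (y₂ : Matrix β β F) - LinearMap.id)) := by rw [h3]; trivial
      rw [LinearMap.mem_ker, LinearMap.comp_apply] at h5
      have h6 : (y₂ : Matrix β β F) *ᵥ ((y₂ : Matrix β β F) *ᵥ x - x) - ((y₂ : Matrix β β F) *ᵥ x - x) = 0 := h5
      rw [Matrix.mulVec_sub] at h6
      rw [two_smul]
      have h7 := congrArg (fun z => z + (y₂ : Matrix β β F) *ᵥ x + (y₂ : Matrix β β F) *ᵥ x) h6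
      simp only [zero_add] at h7
      rw [← h7]
      abel
    -- the square
    have hK : Kel f₁ e' (c' • LinearMap.id) (kr (y₁, y₂)) := by
      rw [h4]; exact kel_tU T e' c' hy₁
    have h5 : ∀ v, (kr (y₁, y₂) : Matrix (Fin 2 × β) (Fin 2 × β) F) *ᵥ
        ((kr (y₁, y₂) : Matrix (Fin 2 × β) (Fin 2 × β) F) *ᵥ v) =
        (2 : F) • ((kr (y₁, y₂) : Matrix (Fin 2 × β) (Fin 2 × β) F) *ᵥ v) - v := by
      intro v
      rw [hK, hK v, map_add, L_ten T, T.sym.alternating, zero_smul, add_zero]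
      module
    obtain ⟨y, hy1⟩ := T.nd s hs
    have h6 := h5 ((g : Matrix (Fin 2 × β) (Fin 2 × β) F) *ᵥ (ten (Pi.single 0 1) y))
    rw [hconj, hconj, ← Matrix.mulVec_smul, ← Matrix.mulVec_sub, T.sieg_sq hQs hsa hh, ← hd] at h6
    have h7 : ∀ v w, (g : Matrix (Fin 2 × β) (Fin 2 × β) F) *ᵥ v = (g : Matrix (Fin 2 × β) (Fin 2 × β) F) *ᵥ w →
        v = w := by
      intro v w hvw
      rw [← gl_inv_mulVec g v, hvw, gl_inv_mulVec]
    have h8 := h7 _ _ h6
    have h9 : (2 * Q a) • ten (R B s (ten (Pi.single 0 1) y)) s = 0 := by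
      have := congrArg (fun z => (2 : F) • ((d : Matrix (Fin 2 × β) (Fin 2 × β) F) *ᵥ ten (Pi.single 0 1) y) -
        ten (Pi.single 0 1) y - z) h8
      simp only [sub_self] at this
      rw [sub_sub_cancel] at this
      exact this
    rcases smul_eq_zero.mp h9 with h10 | h10
    · exact mul_ne_zero T.two hQa h10
    · rcases ten_eq_zero h10 with h11 | h11
      · rw [T.R_ten] at h11
        have h12 := congrFun h11 0
        simp only [Pi.smul_apply, Pi.single_eq_same, smul_eq_mul, mul_one, Pi.zero_apply] at h12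
        exact hy1 h12
      · exact hs h11
  obtain ⟨c, hc⟩ := hsc
  -- the square of d' - 1
  set d' := kr (y₁, y₂) with hd'
  have hd'ten : ∀ u w, (d' : Matrix (Fin 2 × β) (Fin 2 × β) F) *ᵥ Cfsg.Agent.H872.ten u w =
      Cfsg.Agent.H872.ten u (c • ((y₂ : Matrix β β F) *ᵥ w)) := by
    intro u w
    rw [hd', kr_mulVec_ten, hc, ten_smul_left, ten_smul_right]
  -- Y w = (c y₂ - 1)² w
  let Y : (β → F) → (β → F) := fun w => c • ((y₂ : Matrix β β F) *ᵥ (c • ((y₂ : Matrix β β F) *ᵥ w)))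
    - (2 : F) • (c • ((y₂ : Matrix β β F) *ᵥ w)) + w
  have hYten : ∀ u w, (d' : Matrix (Fin 2 × β) (Fin 2 × β) F) *ᵥ ((d' : Matrix (Fin 2 × β) (Fin 2 × β) F) *ᵥ
      Cfsg.Agent.H872.ten u w) - (2 : F) • ((d' : Matrix (Fin 2 × β) (Fin 2 × β) F) *ᵥ Cfsg.Agent.H872.ten u w) +
      Cfsg.Agent.H872.ten u w = Cfsg.Agent.H872.ten u (Y w) := by
    intro u w
    rw [hd'ten, hd'ten]
    funext p
    simp only [Y, ten_apply, Pi.add_apply, Pi.sub_apply, Pi.smul_apply, smul_eq_mul, nsmul_eq_mul]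
    ring
  have hsq : ∀ v, (d' : Matrix (Fin 2 × β) (Fin 2 × β) F) *ᵥ ((d' : Matrix (Fin 2 × β) (Fin 2 × β) F) *ᵥ
      ((g : Matrix (Fin 2 × β) (Fin 2 × β) F) *ᵥ v)) -
      (2 : F) • ((d' : Matrix (Fin 2 × β) (Fin 2 × β) F) *ᵥ ((g : Matrix (Fin 2 × β) (Fin 2 × β) F) *ᵥ v)) +
      (g : Matrix (Fin 2 × β) (Fin 2 × β) F) *ᵥ v =
      (g : Matrix (Fin 2 × β) (Fin 2 × β) F) *ᵥ (Cfsg.Agent.H872.ten (-(2 * Q a) • R B s v) s) := by
    intro v
    rw [hconj, hconj, T.sieg_sq hQs hsa hh, ← hd, Matrix.mulVec_sub, Matrix.mulVec_sub, Matrix.mulVec_smul, neg_smul,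
      ten_neg_left, ten_smul_left, Matrix.mulVec_neg, Matrix.mulVec_smul]
    abel
  -- Y ≠ 0
  obtain ⟨w₀, hw₀⟩ : ∃ w, Y w ≠ 0 := by
    by_contra hcon
    push Not at hcon
    obtain ⟨y, hy1⟩ := T.nd s hs
    have h1 : ∀ v, (d' : Matrix (Fin 2 × β) (Fin 2 × β) F) *ᵥ ((d' : Matrix (Fin 2 × β) (Fin 2 × β) F) *ᵥ v) -
        (2 : F) • ((d' : Matrix (Fin 2 × β) (Fin 2 × β) F) *ᵥ v) + v = 0 := by
      intro v
      have h2 : ((Matrix.toLin' (d' : Matrix (Fin 2 × β) (Fin 2 × β) F)) ∘ₗ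
          (Matrix.toLin' (d' : Matrix (Fin 2 × β) (Fin 2 × β) F)) -
          (2 : F) • (Matrix.toLin' (d' : Matrix (Fin 2 × β) (Fin 2 × β) F)) + LinearMap.id) =
          (0 : (Fin 2 × β → F) →ₗ[F] (Fin 2 × β → F)) := by
        apply linearMap_ext_ten
        intro u w
        have h3 := hYten u w
        rw [hcon w, ten_zero_right] at h3
        rw [LinearMap.zero_apply, ← h3, LinearMap.add_apply, LinearMap.sub_apply, LinearMap.smul_apply,
          LinearMap.comp_apply, Matrix.toLin'_apply, Matrix.toLin'_apply, LinearMap.id_apply, two_smul]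
      have h4 := congrArg (fun X : (Fin 2 × β → F) →ₗ[F] (Fin 2 × β → F) => X v) h2
      simp only [LinearMap.add_apply, LinearMap.sub_apply, LinearMap.smul_apply, LinearMap.comp_apply,
        Matrix.toLin'_apply, LinearMap.id_apply, LinearMap.zero_apply] at h4
      rw [two_smul] at h4
      rw [two_smul]
      exact h4
    have h5 := hsq (Cfsg.Agent.H872.ten (Pi.single 0 1) y)
    rw [h1] at h5
    have h6 := gl_mulVec_eq_zero g h5.symm
    rcases ten_eq_zero h6 with h7 | h7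
    · rw [T.R_ten] at h7
      have h8 := congrFun h7 0
      simp only [Pi.smul_apply, Pi.single_eq_same, smul_eq_mul, mul_one, Pi.zero_apply] at h8
      exact (mul_ne_zero (neg_ne_zero.mpr (mul_ne_zero T.two hQa)) hy1) h8
    · exact hs h7
  set s' := Y w₀ with hs'
  have hs'in : ∀ u, ∃ u', Cfsg.Agent.H872.ten u s' =
      (g : Matrix (Fin 2 × β) (Fin 2 × β) F) *ᵥ (Cfsg.Agent.H872.ten u' s) := by
    intro u
    rw [hs', ← hYten]
    have h1 : Cfsg.Agent.H872.ten u w₀ = (g : Matrix (Fin 2 × β) (Fin 2 × β) F) *ᵥ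
        (((g⁻¹ : GL (Fin 2 × β) F) : Matrix (Fin 2 × β) (Fin 2 × β) F) *ᵥ Cfsg.Agent.H872.ten u w₀) := by
      rw [gl_mulVec_inv]
    rw [h1, hsq]
    exact ⟨_, rfl⟩
  have hss : B s s = 0 := by rw [T.qf.self, hQs, mul_zero]
  have hQs' : Q s' = 0 := by
    obtain ⟨x, hx⟩ := (T.sym.nondegenerate (Pi.single 0 1) (by
      intro h; have := congrFun h 0; simp at this)).2
    obtain ⟨u₁, hu₁⟩ := hs'in (Pi.single 0 1)
    obtain ⟨u₂, hu₂⟩ := hs'in x
    have h1 : f (Cfsg.Agent.H872.ten (Pi.single 0 1) s') (Cfsg.Agent.H872.ten x s') = 0 := by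
      rw [hu₁, hu₂, hiso, T.ten, hss, mul_zero]
    rw [T.ten, T.qf.self] at h1
    rcases mul_eq_zero.mp h1 with h2 | h2
    · exact absurd h2 hx
    · exact (mul_eq_zero.mp h2).resolve_left T.two
  obtain ⟨b, hb, hbs⟩ := exists_iso_map T hs hw₀ (by rw [hQs, hQs'])
  have hk := T.one_kr_mem hM (T.B_iso hb)
  obtain ⟨x, hx⟩ := T.stab hM hs hQs hnc (g := g⁻¹ * kr ((1 : GL (Fin 2) F), b)) (M.mul_mem (M.inv_mem hg) hk) (by
    intro u
    obtain ⟨u', hu'⟩ := hs'in u
    refine ⟨u', ?_⟩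
    rw [gl_mul_mulVec, kr_mulVec_ten, Units.val_one, Matrix.one_mulVec]
    show ((g⁻¹ : GL (Fin 2 × β) F) : Matrix (Fin 2 × β) (Fin 2 × β) F) *ᵥ
      Cfsg.Agent.H872.ten u ((b : Matrix β β F) *ᵥ s) = _
    rw [hbs, hu', gl_inv_mulVec])
  refine ⟨((1 : GL (Fin 2) F), b) * x⁻¹, ?_⟩
  rw [map_mul, map_inv, hx]
  group


end Cfsg.Agent.H919.Four
end

private theorem dce_d3a47de2487b : _root_.True := by
  try have : _root_.True := by simp only [_root_.Cfsg.Agent.H919.Four.Nm.eq_1]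
  try have : _root_.True := by simp only [_root_.Cfsg.Agent.H919.Four.cj.eq_1]
  try have : _root_.True := by simp only [_root_.Cfsg.Agent.H919.Four.ptr.eq_1]
  try have : _root_.True := by simp only [_root_.Cfsg.Agent.H919.Four.phi.eq_1]
  try have : _root_.True := by simp only [_root_.Cfsg.Agent.H919.Four.Lc.eq_1]
  try have : _root_.True := by simp only [_root_.Cfsg.Agent.H919.uu.congr_simp]
  exact _root_.True.intro
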